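import Cfsg.Agent.J4.Gen
import Cfsg.Agent.J4.Srch
import Cfsg.Agent.J4.AC

/-! Tools: coordinates, orbits, searches. -/

set_option autoImplicit false
set_option maxRecDepth 1000000
set_option linter.unusedSectionVars false

namespace CF.JP
open Cfsg Subgroup CF.Loc CF.Even CF.LX CF.Comp CF.Dce CF.J4

variable {G : Type*} [Group G]

theorem surj_of_inj {N : ℕ} {F : ℕ → ℕ} (h1 : ∀ c < N, F c < N) (h2 : ∀ a < N, ∀ b < N, F a = F b → a = b) :
    ∀ c < N, ∃ a < N, F a = c := fun c hc => by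
  obtain ⟨a, e⟩ := Finite.surjective_of_injective (f := fun a : Fin N => (⟨F a, h1 a a.2⟩ : Fin N))
    (fun a b e => Fin.ext (h2 a a.2 b b.2 (congrArg Fin.val e))) ⟨c, hc⟩
  exact ⟨a, a.2, congrArg Fin.val e⟩

theorem exists_inv {n A : ℕ} (hn : 0 < n) (hA : A < 2 ^ (n * n)) (h : ∀ c < 2 ^ n, vm n c A = 0 → c = 0) :
    ∃ B, mm n A B = mo n ∧ mm n B A = mo n := by
  have inj : ∀ a < 2 ^ n, ∀ b < 2 ^ n, vm n a A = vm n b A → a = b := fun a ha b hb e =>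
    Nat.eq_of_xor_eq_zero (h _ (Nat.xor_lt_two_pow ha hb) (by rw [vm_xor, e, Nat.xor_self]))
  choose! F h1 h2 using surj_of_inj (fun c _ => vm_lt n c A) inj
  obtain ⟨B, -, e⟩ := exists_mat hn h1 fun a ha b hb => inj _ (h1 _ (Nat.xor_lt_two_pow ha hb)) _
    (Nat.xor_lt_two_pow (h1 a ha) (h1 b hb)) (by rw [vm_xor, h2 a ha, h2 b hb, h2 _ (Nat.xor_lt_two_pow ha hb)])
  exact ⟨B, mat_ext hn (mm_lt hn _ _) (mo_lt hn) fun c hc => by
      rw [vm_mm hn, vm_mo hn hc, e _ (vm_lt _ _ _)]; exact inj _ (h1 _ (vm_lt _ _ _)) _ hc (h2 _ (vm_lt _ _ _)),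
    mat_ext hn (mm_lt hn _ _) (mo_lt hn) fun c hc => by rw [vm_mm hn, vm_mo hn hc, e c hc, h2 c hc]⟩

theorem co_of_inj {n : ℕ} {S Z : Subgroup G} {ν π : G → ℕ} (C : Co n S Z ν)
    (h1 : ∀ a ∈ S, ∀ b ∈ S, π (a * b) = π a ^^^ π b) (h2 : ∀ a ∈ S, π a < 2 ^ n) (h3 : ∀ a ∈ S, (π a = 0 ↔ a ∈ Z)) :
    Co n S Z π := by
  choose! s a b using C.surj
  refine ⟨C.pos, C.le, h1, h2, fun c hc => ?_, h3⟩
  obtain ⟨d, hd, e⟩ := surj_of_inj (F := fun c => π (s c)) (fun c hc => h2 _ (a c hc)) (fun c hc d hd e => by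
    have := (C.ker _ (mul_mem (a c hc) (a d hd))).2 ((h3 _ (mul_mem (a c hc) (a d hd))).1
      (by rw [h1 _ (a c hc) _ (a d hd), e, Nat.xor_self]))
    rw [C.mul _ (a c hc) _ (a d hd), b c hc, b d hd] at this
    exact Nat.eq_of_xor_eq_zero this) c hc
  exact ⟨_, a d hd, e⟩

theorem co_step {n : ℕ} {T Z : Subgroup G} {ν : G → ℕ} (h1 : ∀ a ∈ T, ∀ b ∈ T, ν (a * b) = ν a ^^^ ν b)
    (h2 : ∀ a ∈ T, ν a < 2 ^ n) (h3 : ∀ c < 2 ^ n, ∃ a ∈ T, ν a = c) (h4 : ∀ a ∈ T, (ν a = 0 ↔ a ∈ Z)) (l : Z ≤ T)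
    {x : G} (hx : x ∉ T) (xx : x * x ∈ Z) (c : ∀ a ∈ T, a⁻¹ * (x * a * x⁻¹) ∈ Z) :
    ∃ U μ, (∀ g, g ∈ U ↔ g ∈ T ∨ g * x⁻¹ ∈ T) ∧ Co (n + 1) U Z μ := by
  classical
  have n1 : ∀ a ∈ T, x * a * x⁻¹ ∈ T := fun a ha => by simpa using mul_mem ha (l (c a ha))
  have z0 : ∀ a ∈ T, ∀ d ∈ Z, ν (a * d) = ν a := fun a ha d hd => by
    rw [h1 a ha d (l hd), (h4 d (l hd)).2 hd, Nat.xor_zero]
  have e1 : ∀ a ∈ T, ν (x * a * x⁻¹) = ν a := fun a ha => by simpa using z0 a ha _ (c a ha)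
  have ex : ∀ a ∈ T, a * x⁻¹ ∉ T := fun a ha h => hx (by simpa using mul_mem (inv_mem h) ha)
  have p : ∀ a, a < 2 ^ n → a ^^^ 2 ^ n < 2 ^ (n + 1) := fun a h =>
    Nat.xor_lt_two_pow (h.trans (Nat.pow_lt_pow_right one_lt_two n.lt_succ_self))
      (Nat.pow_lt_pow_right one_lt_two n.lt_succ_self)
  have m1 : ∀ a b : G, a * x⁻¹ ∈ T → b ∈ T → a * b * x⁻¹ = a * x⁻¹ * (x * b * x⁻¹) := fun a b _ _ => by group
  have m2 : ∀ a b : G, a * b = a * x⁻¹ * (x * (b * x⁻¹) * x⁻¹) * (x * x) := fun a b => by group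
  let U : Subgroup G :=
    { carrier := {g | g ∈ T ∨ g * x⁻¹ ∈ T}
      one_mem' := Or.inl T.one_mem
      mul_mem' := fun {a b} ha hb => by
        rcases ha with ha | ha <;> rcases hb with hb | hb
        · exact Or.inl (mul_mem ha hb)
        · exact Or.inr (mul_assoc a b _ ▸ mul_mem ha hb)
        · exact Or.inr (m1 a b ha hb ▸ mul_mem ha (n1 b hb))
        · exact Or.inl (m2 a b ▸ mul_mem (mul_mem ha (n1 _ hb)) (l xx))
      inv_mem' := fun {a} ha => ha.imp inv_mem fun ha => by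
        have := inv_mem (mul_mem (l xx) (mul_mem (inv_mem (l xx)) (mul_mem (n1 _ ha) (l xx))))
        rwa [show (x * x * ((x * x)⁻¹ * (x * (a * x⁻¹) * x⁻¹ * (x * x))))⁻¹ = a⁻¹ * x⁻¹ by group] at this }
  refine ⟨U, fun g => if g ∈ T then ν g else ν (g * x⁻¹) ^^^ 2 ^ n, fun _ => Iff.rfl, n.succ_pos,
    fun a ha => Or.inl (l ha), fun a ha b hb => ?_, fun a ha => ?_, fun d hd => ?_, fun a ha => ?_⟩
  · by_cases p : a ∈ T <;> by_cases q : b ∈ T
    · rw [if_pos p, if_pos q, if_pos (mul_mem p q), h1 a p b q]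
    · rw [if_pos p, if_neg q, if_neg (fun k => q (by simpa using mul_mem (inv_mem p) k)), mul_assoc,
        h1 a p _ (hb.resolve_left q), Nat.xor_assoc]
    · rw [if_neg p, if_pos q, if_neg (fun k => p (by simpa using mul_mem k (inv_mem q))), m1 a b (ha.resolve_left p) q,
        h1 _ (ha.resolve_left p) _ (n1 b q), e1 b q, Nat.xor_assoc, Nat.xor_assoc, Nat.xor_comm (ν b)]
    · have r := ha.resolve_left p
      have s := hb.resolve_left q
      rw [if_neg p, if_neg q, if_pos (m2 a b ▸ mul_mem (mul_mem r (n1 _ s)) (l xx)), m2 a b,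
        z0 _ (mul_mem r (n1 _ s)) _ xx, h1 _ r _ (n1 _ s), e1 _ s, xor4, Nat.xor_self, Nat.xor_zero]
  · split_ifs with k
    exacts [(h2 a k).trans (Nat.pow_lt_pow_right one_lt_two n.lt_succ_self), p _ (h2 _ (ha.resolve_left k))]
  · by_cases k : d < 2 ^ n
    · obtain ⟨a, ha, e⟩ := h3 d k
      exact ⟨a, Or.inl ha, by rw [if_pos ha, e]⟩
    · obtain ⟨a, ha, e⟩ := h3 (d ^^^ 2 ^ n) (Nat.lt_pow_two_of_testBit _ fun i hi => by
        rw [Nat.testBit_xor, Nat.testBit_two_pow]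
        rcases hi.eq_or_lt with rfl | hi
        · rw [Nat.testBit_of_two_pow_le_and_two_pow_add_one_gt (not_lt.1 k) hd]; simp
        · rw [Nat.testBit_lt_two_pow (hd.trans_le (Nat.pow_le_pow_right two_pos hi))]; simp [hi.ne])
      refine ⟨a * x, Or.inr (by simpa using ha), ?_⟩
      rw [if_neg (fun k => hx (by simpa using mul_mem (inv_mem ha) k)), mul_inv_cancel_right, e, Nat.xor_assoc,
        Nat.xor_self, Nat.xor_zero]
  · split_ifs with k
    · exact h4 a k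
    · exact ⟨fun e => absurd (Nat.eq_of_xor_eq_zero e) (h2 _ (ha.resolve_left k)).ne, fun e => absurd (l e) k⟩

theorem exists_co' [Finite G] {n : ℕ} {S Z : Subgroup G} (l : Z ≤ S) (nz : S ≤ 𝐍(Z)) (sq : ∀ a ∈ S, a * a ∈ Z)
    (c : Nat.card S = 2 ^ (n + 1) * Nat.card Z) : ∃ ν, Co (n + 1) S Z ν := by
  have cm : ∀ x ∈ S, ∀ a ∈ S, a⁻¹ * (x * a * x⁻¹) ∈ Z := fun x hx a ha => by
    have := mul_mem (mul_mem (inv_mem (sq a ha)) (sq _ (mul_mem ha hx))) (inv_mem (sq x hx))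
    rwa [show (a * a)⁻¹ * (a * x * (a * x)) * (x * x)⁻¹ = a⁻¹ * (x * a * x⁻¹) by group] at this
  have st : ∀ T ≤ S, ∀ k ≤ n, Nat.card T = 2 ^ k * Nat.card Z → ∃ x ∈ S, x ∉ T := fun T _ k hk e =>
    SetLike.not_le_iff_exists.1 fun r => by
      have := card_le_of_le r
      rw [c, e] at this
      exact absurd (Nat.le_of_mul_le_mul_right this Nat.card_pos)
        (Nat.pow_lt_pow_right one_lt_two (Nat.lt_succ_of_le hk)).not_ge
  have ul : ∀ {T U : Subgroup G} {x : G}, T ≤ S → x ∈ S → (∀ g, g ∈ U ↔ g ∈ T ∨ g * x⁻¹ ∈ T) → U ≤ S :=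
    fun r hx e g hg => ((e g).1 hg).elim (fun k => r k) fun k => by simpa using mul_mem (r k) hx
  have : ∀ k ≤ n, ∃ T ≤ S, ∃ ν, Co (k + 1) T Z ν := fun k hk => by
    induction k with
    | zero =>
      obtain ⟨x, hx, nx⟩ := st Z l 0 hk (by simp)
      obtain ⟨U, μ, e, C⟩ := co_step (n := 0) (T := Z) (ν := fun _ => 0) (fun _ _ _ _ => rfl) (fun _ _ => one_pos)
        (fun c hc => ⟨1, one_mem _, by omega⟩) (fun a ha => by simpa using ha) le_rfl nx (sq x hx)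
        fun a ha => cm x hx a (l ha)
      exact ⟨U, ul l hx e, μ, C⟩
    | succ k ih =>
      obtain ⟨T, r, ν, C⟩ := ih (by omega)
      obtain ⟨x, hx, nx⟩ := st T r _ hk C.card
      obtain ⟨U, μ, e, D⟩ := co_step C.mul C.lt C.surj C.ker C.le nx (sq x hx) fun a ha => cm x hx a (r ha)
      exact ⟨U, ul r hx e, μ, D⟩
  obtain ⟨T, r, ν, C⟩ := this n le_rfl
  exact ⟨ν, eq_of_le_of_card_ge r (by rw [c, C.card]) ▸ C⟩

/-- the orbit of the points on the stack -/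
noncomputable def bfs (n : ℕ) (Ms : List ℕ) (k : ℕ) : List ℕ → ℕ → ℕ :=
  Nat.rec (motive := fun _ => List ℕ → ℕ → ℕ) (fun _ F => F) (fun _ ih st F =>
    List.rec (motive := fun _ => ℕ) F (fun c t _ => force c fun c => Bool.rec
      (force (Nat.lor F (Nat.shiftLeft (nat_lit 1) c)) fun F' => ih (lapp (lmap (vm n c) Ms) t) F')
      (ih t F) (tb F c)) st) k

theorem bfs_spec {n : ℕ} {Ms : List ℕ} {P : ℕ → Prop} (hP : ∀ m ∈ Ms, ∀ c < 2 ^ n, P c → P (vm n c m)) (k : ℕ) :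
    ∀ (st : List ℕ) (F : ℕ), (∀ c ∈ st, c < 2 ^ n ∧ P c) → (∀ c, F.testBit c = true → P c) →
      ∀ c, (bfs n Ms k st F).testBit c = true → P c := by
  induction k with
  | zero => exact fun _ _ _ h => h
  | succ k ih =>
    intro st F h1 h2
    cases st with
    | nil => exact h2
    | cons c t =>
      have e : bfs n Ms (k + 1) (c :: t) F = force c fun c => Bool.rec
        (force (Nat.lor F (Nat.shiftLeft (nat_lit 1) c)) fun F' => bfs n Ms k (lapp (lmap (vm n c) Ms) t) F')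
        (bfs n Ms k t F) (tb F c) := rfl
      rw [e, force_eq, force_eq]
      have hc := h1 c List.mem_cons_self
      have ht := fun d hd => h1 d (List.mem_cons_of_mem c hd)
      cases tb F c
      · refine ih _ _ (fun d hd => ?_) fun d hd => ?_
        · rw [lapp_eq, lmap_eq, List.mem_append, List.mem_map] at hd
          rcases hd with ⟨m, hm, rfl⟩ | hd
          exacts [⟨vm_lt _ _ _, hP m hm c hc.1 hc.2⟩, ht d hd]
        · rcases Bool.or_eq_true_iff.1 ((Nat.testBit_or _ _ _).symm.trans hd) with k | k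
          · exact h2 d k
          · rw [show Nat.shiftLeft (nat_lit 1) c = 2 ^ c from Nat.one_shiftLeft c, Nat.testBit_two_pow,
              decide_eq_true_iff] at k
            exact k ▸ hc.2
      · exact ih t F ht h2

theorem bfs_one {n : ℕ} {Ms : List ℕ} {P : ℕ → Prop} (hP : ∀ m ∈ Ms, ∀ c < 2 ^ n, P c → P (vm n c m)) {k : ℕ}
    {st : List ℕ} (h : ∀ c ∈ st, c < 2 ^ n ∧ P c) {c : ℕ} (e : tb (bfs n Ms k st 0) c = true) : P c :=
  bfs_spec hP k st 0 h (fun _ e => by simp at e) c (tb_eq _ _ ▸ e)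

attribute [irreducible] bfs

/-- a search with candidate lists -/
noncomputable def dfs (A : ℕ) (cs : ℕ → ℕ → List ℕ) (fin : ℕ → Bool) (k : ℕ) : ℕ → ℕ → Bool :=
  Nat.rec (motive := fun _ => ℕ → ℕ → Bool) (fun _ Y => fin Y) (fun _ ih t Y => lall (tryY A ih t Y) (cs t Y)) k

theorem dfs_aux {cs : ℕ → ℕ → List ℕ} {A X : ℕ} {fin : ℕ → Bool} (hX : Iso X)
    (hc : ∀ t < 12, ∀ Y, (∀ i < t, fld 12 Y i = vm 12 (fld 12 A i) X) → vm 12 (fld 12 A t) X ∈ cs t Y) (k : ℕ) :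
    ∀ t Y, t + k = 12 → Y < 2 ^ (12 * t) → (∀ i < t, fld 12 Y i = vm 12 (fld 12 A i) X) →
      dfs A cs fin k t Y = true → fin (mm 12 A X) = true := by
  induction k with
  | zero =>
    intro t Y h3 h1 h2 h4
    obtain rfl : t = 12 := h3
    rwa [← eq_of_fld (by norm_num) h1 (mm_lt (by norm_num) A X) fun k hk =>
      (h2 k hk).trans (fld_mm (by norm_num) hk A X).symm]
  | succ k ih =>
    intro t Y h3 h1 h2 h4
    have hl : ∀ k, fld 12 A k < 4096 := fld_lt 12 A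
    have h8 := (lall_iff (f := tryY A (dfs A cs fin k) t Y)).1 h4 _ (hc t (by omega) Y h2)
    rw [tryY, force_eq, brec_imp, force_eq, force_eq] at h8
    have h9 : vm 12 (fld 12 A t) X <<< (12 * t) < 2 ^ (12 * (t + 1)) := by
      rw [Nat.shiftLeft_eq, show 12 * (t + 1) = 12 + 12 * t by ring, pow_add]
      exact Nat.mul_lt_mul_of_pos_right (vm_lt _ _ _) (Nat.two_pow_pos _)
    refine ih (t + 1) _ (by omega)
      (Nat.xor_lt_two_pow (h1.trans_le (Nat.pow_le_pow_right two_pos (by omega))) h9) (fun i hi => ?_) (h8 ?_)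
    · change fld 12 (Y ^^^ vm 12 (fld 12 A t) X <<< (12 * t)) i = _
      rw [fld_xor]
      rcases (Nat.lt_succ_iff.1 hi).eq_or_lt with rfl | hi
      · rw [fld, fld, Nat.shiftRight_eq_zero _ _ h1, Nat.shiftLeft_shiftRight, Nat.zero_mod, Nat.zero_xor,
          Nat.mod_eq_of_lt (vm_lt _ _ _)]
      · rw [h2 i hi, show fld 12 (vm 12 (fld 12 A t) X <<< (12 * t)) i = 0 from Nat.eq_of_testBit_eq fun r => by
          rw [testBit_fld, Nat.testBit_shiftLeft, Nat.zero_testBit]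
          by_cases hr : r < 12
          · rw [decide_eq_false (p := 12 * i + r ≥ 12 * t) (by omega)]; simp
          · simp [hr], Nat.xor_zero]
    · rw [gram, force_eq, brec_and, beq_iff, allFrom_zero, row_eq', hX _ (hl t)]
      exact ⟨rfl, fun i hi => beq_iff.2 (by rw [row_eq', row_eq', h2 i hi, hX.bb (hl _) (hl _)])⟩

/-- seeds from lists, each followed by its image under `h` -/
noncomputable def cs2 (h : ℕ) (CS : List (List ℕ)) (t Y : ℕ) : List ℕ :=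
  Bool.rec (nth [] CS (Nat.div t 2)) [vm 12 (row Y (Nat.pred t)) h] (Nat.beq (Nat.mod t 2) 1)

/-- the whole check -/
noncomputable def dfsOK (D h A Ai : ℕ) (CS : List (List ℕ)) (fin : ℕ → Bool) : Bool :=
  Bool.rec false (Bool.rec false (dfs A (cs2 h CS) (fun Y => force (mm 12 Ai Y) fin) 12 0 0)
    (allFrom (fun i => Nat.beq (row A (Nat.succ (Nat.mul 2 i))) (vm 12 (row A (Nat.mul 2 i)) D)) (nat_lit 0) 6))
    (Nat.beq (mm 12 Ai A) (mo 12))

theorem dfs_sound {D h A Ai : ℕ} {CS : List (List ℕ)} {fin : ℕ → Bool} (e : dfsOK D h A Ai CS fin = true) {X : ℕ}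
    (hX : Iso X) (hl : X < 2 ^ (12 * 12)) (T : Tw X D h) (hc : ∀ i < 6, vm 12 (fld 12 A (2 * i)) X ∈ nth [] CS i) :
    fin X = true := by
  rw [dfsOK, brec_and, brec_and, beq_iff, allFrom_zero] at e
  obtain ⟨e1, e2, e3⟩ := e
  have := dfs_aux hX (fun t ht Y h => ?_) 12 0 0 rfl one_pos (fun _ h => absurd h (Nat.not_lt_zero _)) e3
  · rwa [force_eq, ← mm_assoc (by norm_num), e1, mo_mm (by norm_num) hl] at this
  · obtain ⟨i, rfl | rfl⟩ := Nat.even_or_odd' t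
    · rw [cs2, show Nat.beq (Nat.mod (2 * i) 2) 1 = false by rw [show Nat.mod (2 * i) 2 = 0 from Nat.mul_mod_right 2 i]; rfl,
        show Nat.div (2 * i) 2 = i from Nat.mul_div_cancel_left i two_pos]
      exact hc i (by omega)
    · rw [cs2, show Nat.beq (Nat.mod (2 * i + 1) 2) 1 = true by
        rw [show Nat.mod (2 * i + 1) 2 = 1 from Nat.mul_add_mod 2 i 1]; rfl]
      refine List.mem_singleton.2 ?_
      have := beq_iff.1 (e2 i (by omega))
      rw [row_eq', row_eq'] at this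
      rw [row_eq', show Nat.pred (2 * i + 1) = 2 * i from rfl, h _ (by omega), ← T _ (fld_lt 12 _ _)]
      exact congrArg (vm 12 · X) this

theorem adj [Finite G] {R : Subgroup G} (hR : IsPGroup 2 R) {p h p' : G} (p3 : p ^ 3 = 1) (n : p ∈ 𝐍(R))
    (m : p' ∈ zpowers p) (e : h⁻¹ * p * h * p'⁻¹ ∈ R) : ∃ r ∈ R, (h * r)⁻¹ * p * (h * r) = p' := by
  have : Fact (Nat.Prime 2) := ⟨Nat.prime_two⟩
  have i : ∀ g ∈ R, g ∈ zpowers p → g = 1 := fun g hg ⟨k, e⟩ => by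
    obtain ⟨a, ha⟩ := hR ⟨g, hg⟩
    have a1 : g ^ 2 ^ a = 1 := congrArg Subtype.val ha
    have a2 : g ^ 3 = 1 := by rw [← e, ← zpow_natCast, ← zpow_mul, mul_comm, zpow_mul, zpow_natCast, p3, one_zpow]
    simpa [show Nat.gcd (2 ^ a) 3 = 1 from Nat.Coprime.pow_left a (by norm_num)] using pow_gcd_eq_one.2 ⟨a1, a2⟩
  obtain ⟨k, hk⟩ := IsPGroup.iff_card.1 hR
  have n' : zpowers p ≤ 𝐍(R) := zpowers_le.2 n
  have u : h⁻¹ * p * h ∈ R ⊔ zpowers p := by simpa using mul_mem (mem_sup_left e) (mem_sup_right m)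
  obtain ⟨x, hx, k1⟩ := Bt.exists_conj_mem (P := zpowers p) (H := R ⊔ zpowers p) le_sup_right Nat.prime_three
    (m := 2 ^ k) (by rw [sup_comm, Solv.card_sup_of_inf_eq_bot n' (eq_bot_iff.2 fun g hg => i g hg.2 hg.1), hk])
    (fun d => absurd (Nat.prime_three.dvd_of_dvd_pow d) (by norm_num)) u (a := 1) (by
      simpa [p3] using conj_pow (a := h⁻¹) (b := p) (i := 3))
  obtain ⟨r, hr, c, hc, rfl⟩ := (mem_sup_of_le_normalizer n').1 (inv_mem hx) |>.imp fun r ⟨a, c, b, e⟩ =>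
    (⟨a, c, b, (inv_eq_iff_eq_inv.1 e.symm)⟩ : r ∈ R ∧ ∃ c ∈ zpowers p, x = (r * c)⁻¹)
  have k2 : r⁻¹ * (h⁻¹ * p * h) * r ∈ zpowers p := by
    have := mul_mem (mul_mem hc k1) (inv_mem hc)
    rwa [show c * ((r * c)⁻¹ * (h⁻¹ * p * h) * (r * c)⁻¹⁻¹) * c⁻¹ = r⁻¹ * (h⁻¹ * p * h) * r by group] at this
  refine ⟨r, hr, ?_⟩
  have := i _ (mul_mem (mul_mem (inv_mem hr) e) (norm_mem' (n' m) hr)) (by
    simpa [mul_assoc] using mul_mem k2 (inv_mem m))
  rw [← mul_inv_eq_one, ← this]; group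

end CF.JP
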