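import Cfsg.Agent.JP.A
import Cfsg.Agent.Bt.Xc

/-! The tensor product module of `S₅ × L₃(2)`. -/

set_option autoImplicit false
set_option maxRecDepth 1000000
set_option linter.unusedSectionVars false

namespace CF.JP
open Subgroup CF.Comp CF.Dce CF.J4 Equiv

abbrev P5 : Type := Perm (Fin 5)
abbrev L3 : Type := Matrix.SpecialLinearGroup (Fin 3) (ZMod 2)

/-- digit `i` in base 16 -/
noncomputable def dg (c i : ℕ) : ℕ := Nat.land (Nat.shiftRight c (Nat.mul (nat_lit 4) i)) (nat_lit 15)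
theorem dg_eq (c i : ℕ) : dg c i = fld 4 c i := fld_eq 4 c i
/-- the alternating form on four coordinates -/
noncomputable def ff (u v : ℕ) : ℕ := force v fun v => par (Nat.land u (Nat.lor
  (Nat.shiftLeft (Nat.land v (nat_lit 3)) (nat_lit 2)) (Nat.land (Nat.shiftRight v (nat_lit 2)) (nat_lit 3))))
/-- the squaring map -/
noncomputable def sqf (c : ℕ) : ℕ := force c fun c => Nat.xor (ff (dg c 1) (dg c 2))
  (Nat.xor (Nat.shiftLeft (ff (dg c 0) (dg c 2)) (nat_lit 1)) (Nat.shiftLeft (ff (dg c 0) (dg c 1)) (nat_lit 2)))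
/-- the commutator map -/
noncomputable def cmf (c d : ℕ) : ℕ := force c fun c => force d fun d =>
  Nat.xor (Nat.xor (sqf (Nat.xor c d)) (sqf c)) (sqf d)
theorem cmf_eq (c d : ℕ) : cmf c d = sqf (c ^^^ d) ^^^ sqf c ^^^ sqf d := by rw [cmf, force_eq, force_eq]; rfl
/-- spreads three bits -/
noncomputable def sp (v : ℕ) : ℕ := force v fun v => Nat.lor (Nat.land v (nat_lit 1)) (Nat.lor
  (Nat.shiftLeft (Nat.land v (nat_lit 2)) (nat_lit 3)) (Nat.shiftLeft (Nat.land v (nat_lit 4)) (nat_lit 6)))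
/-- the matrix with the given columns -/
noncomputable def pp (a b c : ℕ) : ℕ := Nat.xor (Nat.xor (sp a) (Nat.shiftLeft (sp b) (nat_lit 1)))
  (Nat.xor (Nat.shiftLeft (sp c) (nat_lit 2)) (nat_lit 32768))
/-- the cross product -/
noncomputable def cr (a b : ℕ) : ℕ := force (Nat.mul a (nat_lit 9)) fun a => force (Nat.mul b (nat_lit 9)) fun b =>
  Nat.land (nat_lit 7) (Nat.xor (Nat.land (Nat.shiftRight a (nat_lit 1)) (Nat.shiftRight b (nat_lit 2)))
    (Nat.land (Nat.shiftRight a (nat_lit 2)) (Nat.shiftRight b (nat_lit 1))))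
/-- the inverse matrix -/
noncomputable def lam (b : ℕ) : ℕ := force b fun b => force (fld 3 b 0) fun x => force (fld 3 b 1) fun y =>
  force (fld 3 b 2) fun z => pp (cr y z) (cr z x) (cr x y)
/-- the action on the tensor product -/
noncomputable def tn (c a b : ℕ) : ℕ := mm 4 (lam b) (mm 4 c a)

/-- the fifteen double transpositions -/
noncomputable def J (u : ℕ) : P5 := nth 1 [1, swap 1 4 * swap 2 3, swap 1 3 * swap 2 4, swap 1 2 * swap 3 4,
  swap 0 3 * swap 2 4, swap 0 4 * swap 1 3, swap 0 1 * swap 2 4, swap 0 2 * swap 1 3, swap 0 4 * swap 2 3,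
  swap 0 1 * swap 2 3, swap 0 3 * swap 1 4, swap 0 2 * swap 1 4, swap 0 2 * swap 3 4, swap 0 4 * swap 1 2,
  swap 0 3 * swap 1 2, swap 0 1 * swap 3 4] u
/-- the number of a double transposition -/
noncomputable def ix (j : P5) : ℕ := dg (nat_lit 0x200000040000006000001000000000080000000900a000500000000000000000f00000000000de003000000000000b00007000000000c0000000)
  ((j 0).1 + 5 * (j 1).1 + 25 * (j 2).1)
/-- the matrix of a permutation -/
noncomputable def cd (σ : P5) : ℕ := ix (σ⁻¹ * J 1 * σ) + 16 * ix (σ⁻¹ * J 2 * σ) + 256 * ix (σ⁻¹ * J 4 * σ) +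
  4096 * ix (σ⁻¹ * J 8 * σ)

noncomputable def S5c : List ℕ := [4680, 4698, 4715, 4729, 5064, 5083, 5097, 5114, 8580, 8599, 8613, 8630, 9156, 9174,
  9191, 9205, 12684, 12702, 12719, 12733, 12876, 12895, 12909, 12926, 18450, 18522, 18590, 18646, 19506, 19582, 19638,
  19706, 23058, 23112, 23229, 23271, 24370, 24429, 24471, 24520, 27410, 27513, 27567, 27588, 27954, 27999, 28036, 28137,
  30994, 31083, 31116, 31221, 32306, 32332, 32421, 32475, 33825, 33901, 33957, 34025, 35889, 35961, 36029, 36085, 38689,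
  38751, 38838, 38856, 40497, 40520, 40623, 40662, 42273, 42366, 42372, 42459, 44849, 44907, 44958, 44996, 46625, 46668,
  46743, 46842, 48433, 48474, 48524, 48615, 50211, 50283, 50351, 50407, 51219, 51295, 51351, 51419, 54819, 54856, 54942,
  55029, 56083, 56190, 56229, 56264, 59171, 59226, 59325, 59332, 59667, 59757, 59780, 59898, 62755, 62841, 62860, 62934,
  64019, 64076, 64182, 64233]

noncomputable def GL3c : List ℕ := [84, 85, 86, 87, 92, 93, 94, 95, 98, 99, 102, 103, 106, 107, 110, 111, 114, 115, 116,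
  117, 122, 123, 124, 125, 140, 141, 142, 143, 156, 157, 158, 159, 161, 163, 165, 167, 169, 171, 172, 174, 177, 179, 181,
  183, 185, 187, 188, 190, 204, 205, 206, 207, 212, 213, 214, 215, 225, 226, 229, 230, 233, 234, 236, 239, 241, 242, 244,
  247, 249, 250, 253, 254, 266, 267, 270, 271, 273, 275, 277, 279, 281, 282, 285, 286, 298, 299, 302, 303, 305, 307, 309,
  311, 313, 314, 317, 318, 330, 331, 334, 335, 337, 339, 340, 342, 345, 346, 348, 351, 354, 355, 358, 359, 369, 370, 372,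
  375, 377, 379, 380, 382, 394, 395, 396, 397, 401, 403, 405, 407, 409, 410, 412, 415, 417, 419, 421, 423, 425, 426, 428,
  431, 442, 443, 444, 445, 458, 459, 460, 461, 465, 467, 468, 470, 473, 474, 477, 478, 481, 482, 485, 486, 489, 491, 492,
  494, 498, 499, 500, 501]

theorem cd_spec : ∀ σ : P5, cd σ ∈ S5c ∧ (cd σ = mo 4 → σ = 1) ∧ ∀ u < 16, σ⁻¹ * J u * σ = J (vm 4 u (cd σ)) := by
  decide +kernel
theorem ix_J : ∀ u < 16, ix (J u) = u := by decide +kernel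
theorem S5c_lt : ∀ a ∈ S5c, a < 2 ^ (4 * 4) := by decide +kernel
theorem cd_mem (σ : P5) : cd σ ∈ S5c := (cd_spec σ).1
theorem cd_lt (σ : P5) : cd σ < 2 ^ (4 * 4) := S5c_lt _ (cd_mem σ)
theorem cd_one : cd 1 = mo 4 := by decide +kernel
theorem cd_mul (σ τ : P5) : cd (σ * τ) = mm 4 (cd σ) (cd τ) :=
  mat_ext (by norm_num) (cd_lt _) (mm_lt (by norm_num) _ _) fun c hc => by
    refine (ix_J _ (vm_lt 4 c _)).symm.trans ((congrArg ix ?_).trans (ix_J _ (vm_lt 4 c _)))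
    rw [vm_mm (by norm_num), ← (cd_spec _).2.2 c hc, ← (cd_spec _).2.2 _ (vm_lt 4 _ _), ← (cd_spec _).2.2 c hc]
    group
theorem cd_inj {σ τ : P5} (e : cd σ = cd τ) : σ = τ :=
  mul_inv_eq_one.1 ((cd_spec _).2.1 (by rw [cd_mul, e, ← cd_mul, mul_inv_cancel, cd_one]))
theorem cd_surj {a : ℕ} (ha : a ∈ S5c) : ∃ σ, cd σ = a := by
  classical
  have := Finset.eq_of_subset_of_card_le (s := Finset.univ.image cd) (t := S5c.toFinset)
    (fun a ha => by obtain ⟨σ, -, rfl⟩ := Finset.mem_image.1 ha; exact List.mem_toFinset.2 (cd_mem σ))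
    ((List.toFinset_card_le _).trans (by
      rw [Finset.card_image_of_injective _ fun _ _ => cd_inj, Finset.card_univ, Fintype.card_perm]; decide +kernel))
  simpa using this.ge (List.mem_toFinset.2 ha)
theorem cd_stab : ∀ σ : P5, vm 4 1 (cd σ) = 1 → σ ∈ [1, swap 1 4, swap 2 3, swap 1 4 * swap 2 3, J 3, swap 1 4 * J 3,
    swap 2 3 * J 3, swap 1 4 * swap 2 3 * J 3] := by decide +kernel
theorem s5_tr : ∀ u < 16, u ≠ 0 → ∃ a ∈ S5c, vm 4 1 a = u := by decide +kernel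
theorem s5_ne : ∀ a ∈ S5c, ∀ u < 16, vm 4 u a = 0 → u = 0 := by decide +kernel
set_option synthInstance.maxSize 1000 in
theorem s5_line : ∀ u < 16, ∀ v < 16, u ≠ 0 → v ≠ 0 → u ≠ v → ∃ a ∈ S5c, vm 4 u a = v ∧ vm 4 v a = u ^^^ v ∧
    mm 4 a (mm 4 a a) = mo 4 := by decide +kernel
theorem fix_d8 : ∀ c < 4096, mm 4 c (cd (swap 1 4)) = c → mm 4 c (cd (swap 2 3)) = c → mm 4 c (cd (J 3)) = c →
    ∃ a < 8, c = sp a := fun c hc h1 h2 h3 => by
  have : force (cd (swap 1 4)) (fun x => force (cd (swap 2 3)) fun y => force (cd (J 3)) fun z => allBin (fun c =>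
    imp (Nat.beq (mm 4 c x) c) (imp (Nat.beq (mm 4 c y) c) (imp (Nat.beq (mm 4 c z) c)
      (lany (fun a => Nat.beq c (sp a)) (List.range 8))))) 4096 12 0) = true := by decide +kernel
  simp only [force_eq] at this
  obtain ⟨a, ha, e⟩ := lany_iff.1 (imp_iff.1 (imp_iff.1 (imp_iff.1 (allBin_spec this (by norm_num) c hc)
    (beq_iff.2 h1)) (beq_iff.2 h2)) (beq_iff.2 h3))
  exact ⟨a, List.mem_range.1 ha, beq_iff.1 e⟩
theorem mm_lt12 {c : ℕ} (hc : c < 4096) (a : ℕ) : mm 4 c a < 4096 := by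
  have h := mm_lt (n := 4) (by norm_num) c a
  have := fld_mm (n := 4) (i := 3) (by norm_num) (by norm_num) c a
  rw [show fld 4 c 3 = 0 by rw [fld, Nat.shiftRight_eq_zero _ _ hc, Nat.zero_mod], vm_zero, fld, Nat.shiftRight_eq_div_pow] at this
  omega

/-- a linear right action on twelve coordinates -/
structure Act {Γ : Type*} [Group Γ] (T : Γ → ℕ → ℕ) : Prop where
  lt : ∀ g, ∀ c < 4096, T g c < 4096
  xor : ∀ g, ∀ c < 4096, ∀ d < 4096, T g (c ^^^ d) = T g c ^^^ T g d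
  mul : ∀ g h, ∀ c < 4096, T (g * h) c = T h (T g c)
  one : ∀ c < 4096, T 1 c = c

theorem x12 {a b : ℕ} (ha : a < 4096) (hb : b < 4096) : a ^^^ b < 4096 := Nat.xor_lt_two_pow (n := 12) ha hb

theorem act_cd : Act fun σ c => mm 4 c (cd σ) :=
  ⟨fun _ _ h => mm_lt12 h _, fun _ _ _ _ _ => mm_xor (by norm_num) _ _ _,
    fun _ _ _ _ => by rw [cd_mul, mm_assoc (by norm_num)], fun c h => by rw [cd_one, mm_mo (by norm_num) (by omega)]⟩

namespace Act
variable {Γ : Type*} [Group Γ] {T : Γ → ℕ → ℕ} (h : Act T)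
include h

theorem zero (g : Γ) : T g 0 = 0 := by simpa using h.xor g 0 (by norm_num) 0 (by norm_num)

theorem comp {Δ : Type*} [Group Δ] (φ : Δ →* Γ) : Act fun g => T (φ g) :=
  ⟨fun _ => h.lt _, fun _ => h.xor _, fun a b => map_mul φ a b ▸ h.mul _ _, map_one φ ▸ h.one⟩

theorem fix1 {P : ℕ → Prop} {g : Γ} (gg : g * g = 1) (hP : ∀ c < 4096, P c → P (c ^^^ T g c)) {c : ℕ} (hc : c < 4096)
    (n : c ≠ 0) (p : P c) : ∃ d < 4096, d ≠ 0 ∧ P d ∧ T g d = d := by
  by_cases e : T g c = c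
  · exact ⟨c, hc, n, p, e⟩
  · exact ⟨_, x12 hc (h.lt g c hc), fun k => e (Nat.eq_of_xor_eq_zero k).symm, hP c hc p, by
      rw [h.xor g c hc _ (h.lt g c hc), ← h.mul g g c hc, gg, h.one c hc, Nat.xor_comm]⟩

theorem cube {g : Γ} (g3 : g * (g * g) = 1) (f : ∀ c < 4096, T g c = c → c = 0) {c : ℕ} (hc : c < 4096) :
    T g (T g c) = c ^^^ T g c := by
  have l := h.lt g c hc
  have := f _ (x12 (x12 hc l) (h.lt g _ l)) (by
    rw [h.xor g _ (x12 hc l) _ (h.lt g _ l), h.xor g c hc _ l, ← h.mul g g _ l, ← h.mul g (g * g) c hc, g3, h.one c hc,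
      Nat.xor_comm, Nat.xor_assoc])
  exact (Nat.eq_of_xor_eq_zero this).symm
end Act

theorem Act.fix8 {T : P5 → ℕ → ℕ} (h : Act T) {P : ℕ → Prop} (hP : ∀ g, ∀ c < 4096, P c → P (c ^^^ T g c)) {c : ℕ}
    (hc : c < 4096) (n : c ≠ 0) (p : P c) :
    ∃ d < 4096, d ≠ 0 ∧ P d ∧ T (swap 1 4) d = d ∧ T (swap 2 3) d = d ∧ T (J 3) d = d := by
  have k : ∀ a b a' : P5, b * a = a' * b → ∀ c < 4096, T a c = c → T a' c = c → T a (c ^^^ T b c) = c ^^^ T b c :=
    fun a b a' e c hc e1 e2 => by rw [h.xor _ c hc _ (h.lt _ c hc), ← h.mul _ _ c hc, e, h.mul _ _ c hc, e1, e2]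
  obtain ⟨c, hc, n, p, e1⟩ := h.fix1 (swap_mul_self 1 4) (hP _) hc n p
  obtain ⟨c, hc, n, p, e2⟩ := h.fix1 (P := fun c => P c ∧ T (swap 1 4) c = c) (swap_mul_self 2 3)
    (fun c hc p => ⟨hP _ c hc p.1, k _ _ _ (by decide +kernel) c hc p.2 p.2⟩) hc n ⟨p, e1⟩
  obtain ⟨c, hc, n, p, e3⟩ := h.fix1 (P := fun c => P c ∧ T (swap 1 4) c = c ∧ T (swap 2 3) c = c) (g := J 3)
    (by decide +kernel) (fun c hc p => ⟨hP _ c hc p.1, k _ _ _ (by decide +kernel) c hc p.2.1 p.2.2,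
      k _ _ _ (by decide +kernel) c hc p.2.2 p.2.1⟩) hc n ⟨p.1, p.2, e2⟩
  exact ⟨c, hc, n, p.1, p.2.1, p.2.2, e3⟩

/-- fixed by the stabiliser of the first vector -/
def Wf (T : P5 → ℕ → ℕ) (w : ℕ) : Prop := w < 4096 ∧ ∀ σ, vm 4 1 (cd σ) = 1 → T σ w = w

theorem Act.wf {T : P5 → ℕ → ℕ} (h : Act T) {d : ℕ} (hd : d < 4096) (e1 : T (swap 1 4) d = d)
    (e2 : T (swap 2 3) d = d) (e3 : T (J 3) d = d) : Wf T d := ⟨hd, fun σ e => by
  have := cd_stab σ e
  simp only [List.mem_cons, List.not_mem_nil, or_false] at this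
  rcases this with rfl | rfl | rfl | rfl | rfl | rfl | rfl | rfl <;> simp only [h.mul _ _ d hd, h.one d hd, e1, e2, e3]⟩

theorem Act.tens {T : P5 → ℕ → ℕ} (h : Act T) (f : ∀ r, r * (r * r) = 1 → r ≠ 1 → ∀ c < 4096, T r c = c → c = 0) :
    ∃ s : ℕ → P5, ∃ t : ℕ → ℕ → ℕ, (∀ u w, t u w = if u = 0 then 0 else T (s u) w) ∧ ∀ w, Wf T w → t 1 w = w ∧
      (∀ u < 16, ∀ σ, T σ (t u w) = t (vm 4 u (cd σ)) w) ∧ ∀ u < 16, ∀ v < 16, t (u ^^^ v) w = t u w ^^^ t v w := by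
  choose! a ha e using s5_tr
  choose! s hs using fun u hu n => cd_surj (ha u hu n)
  replace e : ∀ u < 16, u ≠ 0 → vm 4 1 (cd (s u)) = u := fun u hu n => by rw [hs u hu n, e u hu n]
  refine ⟨s, fun u w => if u = 0 then 0 else T (s u) w, fun _ _ => rfl, fun w hw => ?_⟩
  have q : ∀ u < 16, ∀ σ, T σ (if u = 0 then 0 else T (s u) w) =
      if vm 4 u (cd σ) = 0 then 0 else T (s (vm 4 u (cd σ))) w := fun u hu σ => by
    by_cases n : u = 0
    · rw [if_pos n, n, vm_zero, if_pos rfl, h.zero]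
    · have n' : vm 4 u (cd σ) ≠ 0 := fun k => n (s5_ne _ (cd_mem σ) u hu k)
      have := hw.2 (s u * σ * (s (vm 4 u (cd σ)))⁻¹) (by
        rw [cd_mul, cd_mul, vm_mm (by norm_num), vm_mm (by norm_num), e u hu n]
        conv_lhs => rw [← e _ (vm_lt 4 _ _) n']
        rw [← vm_mm (by norm_num), e _ (vm_lt 4 _ _) n', ← cd_mul, mul_inv_cancel, cd_one, vm_mo (by norm_num) (by norm_num)])
      rw [if_neg n, if_neg n', ← h.mul _ _ w hw.1]
      conv_rhs => rw [← this, ← h.mul _ _ w hw.1, inv_mul_cancel_right]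
  refine ⟨(if_neg one_ne_zero).trans (hw.2 _ (e 1 (by norm_num) one_ne_zero)), q, fun u hu v hv => ?_⟩
  by_cases n : u = 0
  · simp [n]
  by_cases n' : v = 0
  · simp [n']
  by_cases n'' : u = v
  · simp [n'']
  obtain ⟨b, hb, e1, e2, e3⟩ := s5_line u hu v hv n n' n''
  obtain ⟨r, rfl⟩ := cd_surj hb
  have r3 : r * (r * r) = 1 := cd_inj (by rw [cd_mul, cd_mul, e3, cd_one])
  have := h.cube r3 (f r r3 fun k => n'' (by rw [← e1, k, cd_one, vm_mo (by norm_num) hu]))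
    (c := if u = 0 then 0 else T (s u) w) (by rw [if_neg n]; exact h.lt _ w hw.1)
  rwa [q u hu, e1, q v hv, e2] at this

end CF.JP
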