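import Cfsg.Agent.JP.B

/-! Identification of the module and of the squaring map. -/

set_option autoImplicit false
set_option maxRecDepth 1000000
set_option linter.unusedSectionVars false
set_option synthInstance.maxSize 1000

namespace CF.JP
open Subgroup CF.Comp CF.Dce CF.J4 Equiv Function

theorem fld_sp : ∀ u < 16, ∀ a < 8, ∀ i < 3, fld 4 (u * sp a) i = if a.testBit i then u else 0 := by decide +kernel
theorem sp_lt : ∀ a < 8, sp a < 4096 := by decide +kernel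
theorem pp_pow : ∀ a < 8, ∀ b < 8, ∀ c < 8, ∀ r < 12, mm 4 (pp a b c) (2 ^ r) < 4096 ∧
    mm 4 (pp a b c) (2 ^ r) = 2 ^ (r % 4) * sp (nth 0 [a, b, c] (r / 4)) := by decide +kernel
theorem fld_pow : ∀ r < 12, ∀ i < 3, fld 4 (2 ^ r) i = if i = r / 4 then 2 ^ (r % 4) else 0 := by decide +kernel
theorem pp_gl : ∀ a < 8, ∀ b < 8, ∀ c < 8, (∀ v < 8, mm 4 (pp a b c) (sp v) = 0 → v = 0) →
    ∃ m ∈ GL3c, lam m = pp a b c := by decide +kernel
theorem mm_zero' (n x : ℕ) (hn : 0 < n) : mm n x 0 = 0 := by simpa using mm_xor' hn x 0 0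
theorem pp_lt {a b c : ℕ} (ha : a < 8) (hb : b < 8) (hc : c < 8) : ∀ d < 4096, mm 4 (pp a b c) d < 4096 :=
  xor_ind (n := 12) (by rw [mm_zero' _ _ (by norm_num)]; norm_num) (fun r hr => (pp_pow a ha b hb c hc r hr).1)
    fun _ _ _ _ k l => by rw [mm_xor' (by norm_num)]; exact x12 k l
theorem cr_lt (a b : ℕ) : cr a b < 8 := by
  rw [cr, force_eq, force_eq]; exact Nat.lt_succ_of_le Nat.and_le_left
theorem lam_lt (b : ℕ) : ∀ d < 4096, mm 4 (lam b) d < 4096 := by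
  rw [lam, force_eq, force_eq, force_eq, force_eq]; exact pp_lt (cr_lt _ _) (cr_lt _ _) (cr_lt _ _)
theorem tn_lt {c : ℕ} (hc : c < 4096) (a b : ℕ) : tn c a b < 4096 := lam_lt b _ (mm_lt12 hc a)
theorem tn_xor (c d a b : ℕ) : tn (c ^^^ d) a b = tn c a b ^^^ tn d a b := by
  rw [tn, mm_xor (by norm_num), mm_xor' (by norm_num)]; rfl

theorem tensor {T : P5 × L3 → ℕ → ℕ} (h : Act T)
    (f3 : ∀ r, r * (r * r) = 1 → r ≠ 1 → ∀ c < 4096, T (r, 1) c = c → c = 0) {y : L3} (y7 : y ^ 7 = 1)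
    (f7 : ∀ c < 4096, T (1, y) c = c → c = 0) : ∃ P P', mm 12 P P' = mo 12 ∧ mm 12 P' P = mo 12 ∧
      ∃ lf : L3 → ℕ, (∀ b, lf b ∈ GL3c) ∧ Injective lf ∧ (∀ m ∈ GL3c, ∃ b, lf b = m) ∧
        ∀ σ b, ∀ c < 4096, T (σ, b) (vm 12 c P) = vm 12 (tn c (cd σ) (lf b)) P := by
  classical
  have A : Act fun σ => T (σ, 1) := h.comp (MonoidHom.inl _ _)
  have B : Act fun b => T (1, b) := h.comp (MonoidHom.inr _ _)
  have ab : ∀ σ b, ∀ c < 4096, T (σ, b) c = T (1, b) (T (σ, 1) c) := fun σ b c hc => by rw [← h.mul _ _ c hc]; simp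
  have ba : ∀ σ b, ∀ c < 4096, T (σ, b) c = T (σ, 1) (T (1, b) c) := fun σ b c hc => by rw [← h.mul _ _ c hc]; simp
  have wb : ∀ b w, Wf (fun σ => T (σ, 1)) w → Wf (fun σ => T (σ, 1)) (T (1, b) w) := fun b w hw =>
    ⟨h.lt _ _ hw.1, fun σ e => (ba _ _ _ hw.1).symm.trans ((ab _ _ _ hw.1).trans (congrArg _ (hw.2 σ e)))⟩
  have bi : ∀ b, ∀ c < 4096, T (1, b) c = 0 → c = 0 := fun b c hc e => by
    rw [← B.one c hc, ← mul_inv_cancel b, B.mul _ _ c hc, e, B.zero]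
  obtain ⟨s, t, ht, H⟩ := A.tens f3
  obtain ⟨w0, l0, n0, -, e1, e2, e3⟩ := A.fix8 (P := fun _ => True) (fun _ _ _ _ => trivial) (c := 1) (by norm_num)
    one_ne_zero trivial
  let w : ℕ → ℕ := fun i => T (1, y ^ i) w0
  have hw : ∀ i, Wf (fun σ => T (σ, 1)) (w i) := fun i => wb _ _ (A.wf l0 e1 e2 e3)
  have ws : ∀ i, T (1, y) (w i) = w (i + 1) := fun i => (B.mul _ _ _ l0).symm.trans (by rw [← pow_succ])
  have w0' : w 0 = w0 := B.one _ l0
  have wp : ∀ k m, w k = w0 → w (k * m) = w0 := fun k m e => by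
    induction m with
    | zero => exact w0'
    | succ m ih =>
      show T (1, y ^ (k * (m + 1))) w0 = w0
      rw [Nat.mul_succ, pow_add]
      exact (B.mul _ _ _ l0).trans ((congrArg (T (1, y ^ k)) ih).trans e)
  have wn : ∀ i, w i ≠ 0 := fun i e => n0 (bi _ _ l0 e)
  have wf : ∀ i, w (i + 1) ≠ w i := fun i e => wn i (f7 _ (hw i).1 ((ws i).trans e))
  have w8 : ∀ m, w (7 * m + 1) ≠ w0 := fun m e => wf 0 (by
    rw [w0', ← e]; show T (1, y ^ (0 + 1)) w0 = T (1, y ^ (7 * m + 1)) w0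
    rw [pow_add y (7 * m), pow_mul, y7, one_pow, one_mul])
  have tl : ∀ u, ∀ v < 4096, t u v < 4096 := fun u v hv => by rw [ht]; split_ifs; exacts [by norm_num, h.lt _ _ hv]
  have t0 : ∀ v, t 0 v = 0 := fun v => by rw [ht, if_pos rfl]
  have t0' : ∀ u, t u 0 = 0 := fun u => by rw [ht, h.zero, ite_self]
  have tx : ∀ u, ∀ v < 4096, ∀ v' < 4096, t u (v ^^^ v') = t u v ^^^ t u v' := fun u v hv v' hv' => by
    simp only [ht]; split_ifs; exacts [rfl, h.xor _ _ hv _ hv']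
  have tb : ∀ b u, ∀ v < 4096, T (1, b) (t u v) = t u (T (1, b) v) := fun b u v hv => by
    simp only [ht]; split_ifs; exacts [h.zero _, by rw [← ab _ _ _ hv, ba _ _ _ hv]]
  let Θ : ℕ → ℕ := fun c => t (fld 4 c 0) (w 0) ^^^ t (fld 4 c 1) (w 1) ^^^ t (fld 4 c 2) (w 2)
  have tw : ∀ u i, t u (w i) < 4096 := fun u i => tl _ _ (hw i).1
  have Θl : ∀ c, Θ c < 4096 := fun c => x12 (x12 (tw _ _) (tw _ _)) (tw _ _)
  have Θx : ∀ c d, Θ (c ^^^ d) = Θ c ^^^ Θ d := fun c d => by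
    simp only [Θ, fld_xor, fun i u v => (H _ (hw i)).2.2 _ (fld_lt 4 u i) _ (fld_lt 4 v i), xor4]
  have Θa : ∀ σ c, T (σ, 1) (Θ c) = Θ (mm 4 c (cd σ)) := fun σ c => by
    simp only [Θ, h.xor _ _ (x12 (tw _ _) (tw _ _)) _ (tw _ _), h.xor _ _ (tw _ _) _ (tw _ _),
      fun i u => (H _ (hw i)).2.1 _ (fld_lt 4 u i) σ]
    rw [fld_mm (by norm_num) (by norm_num), fld_mm (by norm_num) (by norm_num), fld_mm (by norm_num) (by norm_num)]
  have Θs : ∀ u < 16, ∀ a < 8, Θ (u * sp a) = t u ((if a.testBit 0 then w 0 else 0) ^^^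
      (if a.testBit 1 then w 1 else 0) ^^^ if a.testBit 2 then w 2 else 0) := fun u hu a ha => by
    have l : ∀ i, (if a.testBit i then w i else 0) < 4096 := fun i => by split_ifs; exacts [(hw i).1, by norm_num]
    have e : ∀ i, t (if a.testBit i then u else 0) (w i) = t u (if a.testBit i then w i else 0) := fun i => by
      split_ifs; exacts [rfl, (t0 _).trans (t0' _).symm]
    simp only [Θ]
    rw [fld_sp u hu a ha 0 (by norm_num), fld_sp u hu a ha 1 (by norm_num), fld_sp u hu a ha 2 (by norm_num), e, e, e,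
      tx _ _ (x12 (l _) (l _)) _ (l _), tx _ _ (l _) _ (l _)]
  have Θ1 : ∀ a < 8, Θ (sp a) = (if a.testBit 0 then w 0 else 0) ^^^ (if a.testBit 1 then w 1 else 0) ^^^
      if a.testBit 2 then w 2 else 0 := fun a ha => by
    have e : ∀ i, t (if a.testBit i then 1 else 0) (w i) = if a.testBit i then w i else 0 := fun i => by
      split_ifs; exacts [(H _ (hw i)).1, t0 _]
    simp only [Θ]
    rw [← one_mul (sp a), fld_sp 1 (by norm_num) a ha 0 (by norm_num), fld_sp 1 (by norm_num) a ha 1 (by norm_num),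
      fld_sp 1 (by norm_num) a ha 2 (by norm_num), e, e, e]
  have Θk : ∀ c < 4096, Θ c = 0 → c = 0 := fun c hc e => by
    by_contra n
    obtain ⟨d, hd, n, e, e1, e2, e3⟩ := act_cd.fix8 (P := fun c => Θ c = 0)
      (fun g c _ e => by rw [Θx, ← Θa, e, h.zero]; rfl) hc n e
    obtain ⟨a, ha, rfl⟩ := fix_d8 d hd e1 e2 e3
    rw [Θ1 a ha] at e
    have x : ∀ {a b : ℕ}, a ^^^ b = 0 → b = a := fun e => (Nat.eq_of_xor_eq_zero e).symm
    interval_cases a <;> simp only [Nat.testBit, Nat.reduceShiftRight, Nat.reduceAnd, bne_self_eq_false, Nat.reduceBNe,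
      Bool.false_eq_true, if_false, if_true, Nat.xor_zero, Nat.zero_xor] at e
    · exact n (by decide +kernel)
    · exact wn _ e
    · exact wn _ e
    · exact wf _ (x e)
    · exact wn _ e
    · exact w8 1 (wp 2 4 ((x e).trans w0'))
    · exact wf _ (x e)
    · refine w8 2 (wp 3 5 ?_)
      rw [← ws 2, x e, h.xor _ _ (hw 0).1 _ (hw 1).1, ws, ws, x e, Nat.xor_comm, Nat.xor_assoc, Nat.xor_self,
        Nat.xor_zero, w0']
  have Θi : ∀ a < 4096, ∀ b < 4096, Θ a = Θ b → a = b := fun a ha b hb e =>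
    Nat.eq_of_xor_eq_zero (Θk _ (x12 ha hb) (by rw [Θx, e, Nat.xor_self]))
  have Θs' := surj_of_inj (fun c _ => Θl c) Θi
  have ex : ∀ b i, ∃ a < 8, T (1, b) (w i) = Θ (sp a) := fun b i => by
    obtain ⟨c, hc, e⟩ := Θs' _ (wb b _ (hw i)).1
    have k : ∀ σ, vm 4 1 (cd σ) = 1 → mm 4 c (cd σ) = c := fun σ k =>
      Θi _ (mm_lt12 hc _) _ hc (by rw [← Θa, e]; exact (wb b _ (hw i)).2 σ k)
    obtain ⟨a, ha, rfl⟩ := fix_d8 c hc (k _ (by decide +kernel)) (k _ (by decide +kernel)) (k _ (by decide +kernel))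
    exact ⟨a, ha, e.symm⟩
  choose a al ha using ex
  have Θb : ∀ b, ∀ c < 4096, T (1, b) (Θ c) = Θ (mm 4 (pp (a b 0) (a b 1) (a b 2)) c) := fun b =>
    xor_ind (n := 12) (by rw [mm_zero' _ _ (by norm_num), show Θ 0 = 0 by simpa using Θx 0 0, h.zero])
      (fun r hr => by
        have l : 2 ^ (r % 4) < 16 := Nat.pow_lt_pow_right one_lt_two (Nat.mod_lt r (by norm_num : 0 < 4))
        have e : nth 0 [a b 0, a b 1, a b 2] (r / 4) = a b (r / 4) ∧ Θ (2 ^ r) = t (2 ^ (r % 4)) (w (r / 4)) := by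
          simp only [Θ]
          rw [fld_pow r hr 0 (by norm_num), fld_pow r hr 1 (by norm_num), fld_pow r hr 2 (by norm_num)]
          rcases (by omega : r / 4 = 0 ∨ r / 4 = 1 ∨ r / 4 = 2) with e | e | e <;> rw [e] <;>
            exact ⟨rfl, by simp [t0]⟩
        rw [(pp_pow _ (al _ _) _ (al _ _) _ (al _ _) r hr).2, e.1, e.2, tb _ _ _ (hw _).1, ha, Θs _ l _ (al _ _),
          Θ1 _ (al _ _)])
      fun c _ d _ k l => by rw [Θx, h.xor _ _ (Θl _) _ (Θl _), k, l, mm_xor' (by norm_num), Θx]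
  choose lf l1 l2 using fun b => pp_gl _ (al b 0) _ (al b 1) _ (al b 2) fun v hv e => by
    exact (by decide +kernel : ∀ v < 8, sp v = 0 → v = 0) v hv
      (Θk _ (sp_lt v hv) (bi b _ (Θl _) (by rw [Θb b _ (sp_lt v hv), e]; simpa using Θx 0 0)))
  obtain ⟨P, lP, eP⟩ := exists_mat (n := 12) (by norm_num) (fun c _ => Θl c) fun a _ b _ => Θx a b
  obtain ⟨P', p1, p2⟩ := exists_inv (by norm_num) lP fun c hc e => Θk c hc (eP c hc ▸ e)
  let N : Subgroup L3 :=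
    { carrier := {b | ∀ c < 4096, T (1, b) c = c}
      one_mem' := B.one
      mul_mem' := fun {a b} ha hb c hc => (B.mul a b c hc).trans (by rw [ha c hc, hb c hc])
      inv_mem' := fun {a} ha c hc => by
        conv_lhs => rw [← ha c hc]
        exact (B.mul _ _ c hc).symm.trans (by rw [mul_inv_cancel]; exact B.one c hc) }
  have : N.Normal := ⟨fun a ha g c hc => (B.mul _ _ c hc).trans (by
    rw [B.mul g a c hc, ha _ (h.lt _ c hc)]; exact (B.mul _ _ c hc).symm.trans (by rw [mul_inv_cancel]; exact B.one c hc))⟩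
  have := Bt.simple_SL3
  have nb : N = ⊥ := (IsSimpleGroup.eq_bot_or_eq_top_of_normal N ‹_›).resolve_right fun e =>
    one_ne_zero (f7 1 (by norm_num) (e.ge (mem_top y) 1 (by norm_num)))
  have inj : Injective lf := fun b b' e => mul_inv_eq_one.1 (mem_bot.1 (nb.le fun c hc => by
    obtain ⟨d, hd, rfl⟩ := Θs' c hc
    rw [B.mul _ _ _ hc, Θb b d hd, ← l2, e, l2, ← Θb b' d hd]
    exact (B.mul _ _ _ hc).symm.trans (by rw [mul_inv_cancel]; exact B.one _ hc)))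
  refine ⟨P, P', p1, p2, lf, l1, inj, fun m hm => ?_, fun σ b c hc => ?_⟩
  · have := Fintype.ofFinite L3
    have := Finset.eq_of_subset_of_card_le (s := Finset.univ.image lf) (t := GL3c.toFinset)
      (fun a ha => by obtain ⟨σ, -, rfl⟩ := Finset.mem_image.1 ha; exact List.mem_toFinset.2 (l1 σ))
      ((List.toFinset_card_le _).trans (by
        rw [Finset.card_image_of_injective _ inj, Finset.card_univ, ← Nat.card_eq_fintype_card, Bt.card_SL3]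
        decide +kernel))
    simpa using this.ge (List.mem_toFinset.2 hm)
  · rw [eP c hc, eP _ (tn_lt hc _ _), ab _ _ _ (Θl _), Θa, Θb b _ (mm_lt12 hc _), tn, l2]

theorem s5_pair : ∀ u < 16, ∀ v < 16, u ≠ 0 → v ≠ 0 → ∃ a ∈ S5c, vm 4 1 a = u ∧
    ((vm 4 4 a = v ∧ ff u v = 1) ∨ (ff u v = 0 ∧ (u = v ∨ vm 4 2 a = v ∨ vm 4 8 a = v))) := by decide +kernel
theorem s5_b : (∃ a ∈ S5c, vm 4 1 a = 1 ∧ vm 4 2 a = 3) ∧ (∃ a ∈ S5c, vm 4 1 a = 1 ∧ vm 4 4 a = 12) ∧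
    ∃ a ∈ S5c, vm 4 1 a = 1 ∧ vm 4 4 a = 6 := by decide +kernel
theorem ff_zero : ∀ u < 16, ff u 0 = 0 ∧ ff 0 u = 0 := by decide +kernel

theorem inv_bil {B : ℕ → ℕ → ℕ} (h0 : ∀ v < 16, B 0 v = 0)
    (h1 : ∀ u < 16, ∀ v < 16, ∀ v' < 16, B u (v ^^^ v') = B u v ^^^ B u v')
    (h2 : ∀ a ∈ S5c, ∀ u < 16, ∀ v < 16, B (vm 4 u a) (vm 4 v a) = B u v) :
    ∀ u < 16, ∀ v < 16, B u v = ff u v * B 1 4 := fun u hu v hv => by
  have k : ∀ {x y : ℕ}, x ^^^ y = x → y = 0 := fun e => xor_cancel (e.trans (Nat.xor_zero _).symm)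
  have r : ∀ v < 16, ∀ v', (∃ a ∈ S5c, vm 4 1 a = 1 ∧ vm 4 v a = v') → B 1 v' = B 1 v := fun v hv v' ⟨a, ha, e1, e2⟩ => by
    rw [← h2 a ha 1 (by norm_num) v hv, e1, e2]
  have b1 : B 1 1 = 0 := k ((h1 1 (by norm_num) 2 (by norm_num) 1 (by norm_num)).symm.trans (r 2 (by norm_num) _ s5_b.1))
  have b8 : B 1 8 = 0 :=
    k ((h1 1 (by norm_num) 4 (by norm_num) 8 (by norm_num)).symm.trans (r 4 (by norm_num) _ s5_b.2.1))
  have b2 : B 1 2 = 0 :=
    k ((h1 1 (by norm_num) 4 (by norm_num) 2 (by norm_num)).symm.trans (r 4 (by norm_num) _ s5_b.2.2))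
  by_cases n : u = 0
  · rw [n, h0 v hv, (ff_zero v hv).2, zero_mul]
  by_cases n' : v = 0
  · rw [n', (ff_zero u hu).1, zero_mul]; simpa using h1 u hu 0 (by norm_num) 0 (by norm_num)
  obtain ⟨a, ha, rfl, ⟨rfl, e⟩ | ⟨e, rfl | rfl | rfl⟩⟩ := s5_pair u hu v hv n n' <;>
    rw [e, h2 a ha _ (by norm_num) _ (by norm_num)]
  exacts [(one_mul _).symm, b1.trans (zero_mul _).symm, b2.trans (zero_mul _).symm, b8.trans (zero_mul _).symm]

theorem sh_mm : ∀ a ∈ S5c, ∀ u < 16, ∀ i < 3, mm 4 (u <<< (4 * i)) a = vm 4 u a <<< (4 * i) := by decide +kernel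
theorem sh_lt : ∀ u < 16, ∀ i < 3, u <<< (4 * i) < 4096 := by decide +kernel
theorem dec3 : ∀ c < 4096, c = fld 4 c 0 <<< (4 * 0) ^^^ fld 4 c 1 <<< (4 * 1) ^^^ fld 4 c 2 <<< (4 * 2) := by
  decide +kernel
theorem vm_sq : ∀ x < 2, ∀ y < 2, ∀ z < 2, ∀ B < 512, vm 3 (x ^^^ (y <<< 1 ^^^ z <<< 2)) B =
    x * fld 3 B 0 ^^^ (y * fld 3 B 1 ^^^ z * fld 3 B 2) := by decide +kernel
theorem ff_lt (u v : ℕ) : ff u v < 2 := by rw [ff, force_eq]; exact par_lt _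
theorem sqf_eq (c : ℕ) : sqf c = ff (fld 4 c 1) (fld 4 c 2) ^^^ (ff (fld 4 c 0) (fld 4 c 2) <<< 1 ^^^
    ff (fld 4 c 0) (fld 4 c 1) <<< 2) := by rw [sqf, force_eq, dg_eq, dg_eq, dg_eq]; rfl
theorem sqf_lt (c : ℕ) : sqf c < 8 := sqf_eq c ▸
  (by decide : ∀ x < 2, ∀ y < 2, ∀ z < 2, x ^^^ (y <<< 1 ^^^ z <<< 2) < 8) _ (ff_lt _ _) _ (ff_lt _ _) _ (ff_lt _ _)

theorem quad {q : ℕ → ℕ} {g : ℕ → ℕ → ℕ} (l : ∀ c d, g c d < 8)
    (h1 : ∀ c < 4096, ∀ d < 4096, q (c ^^^ d) = q c ^^^ q d ^^^ g c d)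
    (h2 : ∀ c < 4096, ∀ d < 4096, ∀ e < 4096, g c (d ^^^ e) = g c d ^^^ g c e) (h0 : q 0 = 0)
    (h3 : ∀ a ∈ S5c, ∀ c < 4096, q (mm 4 c a) = q c) : ∃ B < 2 ^ (3 * 3), ∀ c < 4096, q c = vm 3 (sqf c) B := by
  have g1 : ∀ c < 4096, ∀ d < 4096, g c d = q (c ^^^ d) ^^^ (q c ^^^ q d) := fun c hc d hd => by
    rw [h1 c hc d hd, Nat.xor_comm, ← Nat.xor_assoc, Nat.xor_self, Nat.zero_xor]
  have gs : ∀ c < 4096, ∀ d < 4096, g c d = g d c := fun c hc d hd => by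
    rw [g1 c hc d hd, g1 d hd c hc, Nat.xor_comm c, Nat.xor_comm (q c)]
  have b : ∀ i < 3, ∀ j < 3, ∀ u < 16, ∀ v < 16, g (u <<< (4 * i)) (v <<< (4 * j)) =
      ff u v * g (1 <<< (4 * i)) (4 <<< (4 * j)) := fun i hi j hj =>
    inv_bil (B := fun u v => g (u <<< (4 * i)) (v <<< (4 * j)))
      (fun v hv => by simp [g1 0 (by norm_num) _ (sh_lt v hv j hj), h0])
      (fun u hu v hv v' hv' => by
        simp only [Nat.shiftLeft_xor_distrib]; exact h2 _ (sh_lt u hu i hi) _ (sh_lt v hv j hj) _ (sh_lt v' hv' j hj))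
      fun a ha u hu v hv => by
        have p := sh_lt u hu i hi
        have r := sh_lt v hv j hj
        simp only [← sh_mm a ha u hu i hi, ← sh_mm a ha v hv j hj]
        rw [g1 _ (mm_lt12 p a) _ (mm_lt12 r a), ← mm_xor (by norm_num), h3 a ha _ p, h3 a ha _ r, h3 a ha _ (x12 p r),
          g1 _ p _ r]
  have z : ∀ i < 3, ∀ u < 16, q (u <<< (4 * i)) = 0 := fun i hi => by
    have c : ∀ u < 16, u ≠ 0 → q (u <<< (4 * i)) = q (1 <<< (4 * i)) := fun u hu n => by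
      obtain ⟨a, ha, rfl⟩ := s5_tr u hu n
      rw [← sh_mm a ha 1 (by norm_num) i hi, h3 a ha _ (sh_lt 1 (by norm_num) i hi)]
    have := h1 _ (sh_lt 1 (by norm_num) i hi) _ (sh_lt 2 (by norm_num) i hi)
    rw [← Nat.shiftLeft_xor_distrib, c _ (by decide) (by decide), c 2 (by norm_num) (by norm_num), Nat.xor_self,
      b i hi i hi 1 (by norm_num) 2 (by norm_num), show ff 1 2 = 0 by decide +kernel, zero_mul] at this
    intro u hu
    by_cases n : u = 0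
    · rw [n, Nat.zero_shiftLeft, h0]
    · rw [c u hu n, this]; rfl
  let β : ℕ → ℕ := fun k => nth 0 [g (1 <<< (4 * 1)) (4 <<< (4 * 2)), g (1 <<< (4 * 0)) (4 <<< (4 * 2)),
    g (1 <<< (4 * 0)) (4 <<< (4 * 1))] k
  have βl : ∀ k < 3, β k < 2 ^ 3 := fun k hk => by interval_cases k <;> exact l _ _
  refine ⟨pk 3 3 β, pk_lt (by norm_num) βl, fun c hc => ?_⟩
  have s := fun i => sh_lt _ (fld_lt 4 c i)
  rw [sqf_eq, vm_sq _ (ff_lt _ _) _ (ff_lt _ _) _ (ff_lt _ _) _ (pk_lt (by norm_num) βl), fld_pk (by norm_num) βl (by norm_num),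
    fld_pk (by norm_num) βl (by norm_num), fld_pk (by norm_num) βl (by norm_num)]
  conv_lhs => rw [dec3 c hc]
  rw [h1 _ (x12 (s _ 0 (by norm_num)) (s _ 1 (by norm_num))) _ (s _ 2 (by norm_num)),
    h1 _ (s _ 0 (by norm_num)) _ (s _ 1 (by norm_num)),
    gs _ (x12 (s _ 0 (by norm_num)) (s _ 1 (by norm_num))) _ (s _ 2 (by norm_num)),
    h2 _ (s _ 2 (by norm_num)) _ (s _ 0 (by norm_num)) _ (s _ 1 (by norm_num)),
    gs _ (s _ 2 (by norm_num)) _ (s _ 0 (by norm_num)), gs _ (s _ 2 (by norm_num)) _ (s _ 1 (by norm_num)),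
    z 0 (by norm_num) _ (fld_lt 4 c 0), z 1 (by norm_num) _ (fld_lt 4 c 1), z 2 (by norm_num) _ (fld_lt 4 c 2),
    b 0 (by norm_num) 1 (by norm_num) _ (fld_lt 4 c 0) _ (fld_lt 4 c 1),
    b 0 (by norm_num) 2 (by norm_num) _ (fld_lt 4 c 0) _ (fld_lt 4 c 2),
    b 1 (by norm_num) 2 (by norm_num) _ (fld_lt 4 c 1) _ (fld_lt 4 c 2)]
  simp only [Nat.xor_self, Nat.zero_xor, Nat.xor_zero]
  exact (Nat.xor_comm _ _).trans (by rw [Nat.xor_comm (_ * g (1 <<< (4 * 0)) (4 <<< (4 * 2))), Nat.xor_assoc]; rfl)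

end CF.JP
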