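import Cfsg.Agent.JP.C
import Cfsg.Agent.Solv.FrattiniP

/-! The frame of the local subgroup `2^(3+12).(S₅ × L₃(2))`. -/

set_option autoImplicit false
set_option maxRecDepth 1000000
set_option linter.unusedSectionVars false
set_option synthInstance.maxSize 1000

namespace CF.JP
open Cfsg Subgroup CF.Loc CF.Even CF.LX CF.Comp CF.Dce CF.J4 Equiv Function
open scoped commutatorElement

variable {G : Type*} [Group G]

/-- the frame -/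
structure Fk (K L Z : Subgroup G) (ψ : G → P5) (μ ζ : G → ℕ) : Prop where
  nK : K = 𝐍(Z)
  cL : Co 12 L Z μ
  cZ : Co 3 Z ⊥ ζ
  KL : K ≤ 𝐍(L)
  ZC : L ≤ 𝐂(Z)
  hom : HomOn K ψ
  all : ∀ k ∈ K, ∃ b ∈ GL3c, Ac 3 Z ζ k b ∧ ∀ e ∈ L, μ (k⁻¹ * e * k) = tn (μ e) (cd (ψ k)) b
  ex : ∀ σ, ∀ b ∈ GL3c, ∃ k, ψ k = σ ∧ Ac 3 Z ζ k b
  ker : ∀ k ∈ K, (k ∈ L ↔ ψ k = 1 ∧ k ∈ 𝐂(Z))
  sqe : ∀ e ∈ L, ζ (e * e) = sqf (μ e)
  card : Nat.card K = 2 ^ 15 * 20160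

theorem z_inv : ∀ Y < 512, (∀ v < 8, vm 3 v Y = v → v = 0) → pw (mm 3) (mo 3) Y 7 = mo 3 → ∀ T < 512,
    mm 3 T T = mo 3 → mm 3 T Y = mm 3 Y T → T = mo 3 := by decide +kernel
theorem lam_one : lam (mo 3) = mo 4 ∧ ∀ b ∈ GL3c, mm 4 (lam b) 1057 = 1057 → b = mo 3 := by decide +kernel
theorem sj_inj : ∀ B < 512, (∀ w < 8, ∃ v < 8, vm 3 v B = w) → ∀ v < 8, vm 3 v B = 0 → v = 0 := by decide +kernel
theorem sq_lam : ∀ i < 3, ∃ c < 4096, sqf c = 2 ^ i ∧ ∀ b ∈ GL3c, sqf (mm 4 (lam b) c) = fld 3 b i := by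
  have : ∀ i < 3, ∃ c ∈ [320, 260, 20], c < 4096 ∧ sqf c = 2 ^ i ∧ ∀ b ∈ GL3c, sqf (mm 4 (lam b) c) = fld 3 b i := by
    decide +kernel
  exact fun i hi => (this i hi).imp fun _ h => h.2
theorem GL3c_lt : ∀ b ∈ GL3c, b < 2 ^ (3 * 3) := by decide +kernel
theorem tn_one {c : ℕ} (hc : c < 4096) (b : ℕ) : tn c (cd 1) b = mm 4 (lam b) c := by
  rw [tn, cd_one, mm_mo (by norm_num) (by omega)]
theorem tn_one' (c a : ℕ) : tn c a (mo 3) = mm 4 c a := by rw [tn, lam_one.1, mo_mm (by norm_num) (mm_lt (by norm_num) _ _)]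

theorem ac_mo {n : ℕ} {Z : Subgroup G} {ζ : G → ℕ} (C : Co n Z ⊥ ζ) {k : G} : Ac n Z ζ k (mo n) ↔ k ∈ 𝐂(Z) :=
  ⟨fun h c hc => by
    have := (C.eq_iff (norm_mem h.1 hc) hc).1 ((h.2 c hc).trans (vm_mo C.pos (C.lt c hc)))
    rw [mem_bot, inv_mul_eq_one, mul_assoc, inv_mul_eq_iff_eq_mul] at this
    exact this,
  fun h => ⟨centralizer_le_normalizer _ h, fun c hc => by
    rw [vm_mo C.pos (C.lt c hc), mul_assoc, h c hc, inv_mul_cancel_left]⟩⟩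

section
variable [Finite G] {K L Z : Subgroup G} (nK : K = 𝐍(Z)) (KL : K ≤ 𝐍(L)) (ZC : L ≤ 𝐂(Z)) {μ ζ : G → ℕ}
  (cL : Co 12 L Z μ) (cZ : Co 3 Z ⊥ ζ)
include ZC cL cZ

theorem sq_Z {a : G} (ha : a ∈ L) : a * a ∈ Z := (cL.ker _ (mul_mem ha ha)).1 (by rw [cL.mul a ha a ha, Nat.xor_self])

theorem cm_Z {a b : G} (ha : a ∈ L) (hb : b ∈ L) : a⁻¹ * (b⁻¹ * a * b) ∈ Z :=
  (cL.eq_iff ha (norm_mem (le_normalizer hb) ha)).1 (cL.conj_self hb ha).symm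

theorem zz_Z {c : G} (hc : c ∈ Z) : c * c = 1 := (cZ.ker _ (mul_mem hc hc)).1 (by rw [cZ.mul c hc c hc, Nat.xor_self])

theorem sq_mul {a b : G} (ha : a ∈ L) (hb : b ∈ L) :
    ζ (a * b * (a * b)) = ζ (a * a) ^^^ ζ (b * b) ^^^ ζ (a⁻¹ * (b⁻¹ * a * b)) := by
  have h1 := sq_Z ZC cL cZ ha
  have h2 := cm_Z ZC cL cZ ha hb
  rw [← cZ.mul _ h1 _ (sq_Z ZC cL cZ hb), ← cZ.mul _ (mul_mem h1 (sq_Z ZC cL cZ hb)) _ h2]
  generalize hc : a⁻¹ * (b⁻¹ * a * b) = c at h2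
  have e : a * b = b * a * c := by rw [← hc]; group
  congr 1
  calc a * b * (a * b) = b * a * c * (a * b) := by rw [← e]
    _ = b * (a * a) * b * c := by rw [mul_assoc _ c, ZC (mul_mem ha hb) c h2]; group
    _ = _ := by rw [← ZC hb _ h1]; group

theorem sq_congr {a b : G} (ha : a ∈ L) (hb : b ∈ L) (e : μ a = μ b) : a * a = b * b := by
  have h := (cL.eq_iff ha hb).1 e
  calc a * a = a * (a * (a⁻¹ * b * (a⁻¹ * b))) := by rw [zz_Z ZC cL cZ h, mul_one]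
    _ = a * (a⁻¹ * b * a) * (a⁻¹ * b) := by rw [ZC ha _ h]; group
    _ = _ := by group

theorem pow4 {a : G} (ha : a ∈ L) : a ^ 4 = 1 := by
  rw [show a ^ 4 = a * a * (a * a) by simp only [pow_succ, pow_zero, one_mul, mul_assoc], zz_Z ZC cL cZ (sq_Z ZC cL cZ ha)]

end

theorem exists_fk [Finite G] {K L Z : Subgroup G} (hL : L = 𝐎[2](K)) (hZ : Z = (center L).map L.subtype)
    (hLs : IsSpecial 2 L) (hLc : Nat.card L = 2 ^ 15) (hZe : IsElementaryAbelian 2 Z) (hZc : Nat.card Z = 8)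
    (nK : K = 𝐍(Z)) [(L.subgroupOf K).Normal] (e : K ⧸ L.subgroupOf K ≃* P5 × L3)
    (hxy : ∀ x y : G, x ∈ K → y ∈ K → orderOf x = 3 → orderOf y = 7 → x * y = y * x →
      L ⊓ 𝐂₁(x) = Z ∧ L ⊓ 𝐂₁(y) = ⊥) : ∃ ψ μ ζ, Fk K L Z ψ μ ζ := by
  classical
  have : Fact (Nat.Prime 2) := ⟨Nat.prime_two⟩
  have : Fact (Nat.Prime 3) := ⟨Nat.prime_three⟩
  have : Fact (Nat.Prime 7) := ⟨by norm_num⟩
  have LK : L ≤ K := hL ▸ pCoreOf_le 2 K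
  have KL : K ≤ 𝐍(L) := hL ▸ le_normalizer_pCoreOf 2 K
  have ZL : Z ≤ L := hZ ▸ map_subtype_le _
  have ZC : L ≤ 𝐂(Z) := fun a ha c hc => by
    rw [hZ] at hc
    obtain ⟨c, hc, rfl⟩ := hc
    exact congrArg Subtype.val (mem_center_iff.1 hc ⟨a, ha⟩).symm
  have kZ : ∀ k : K, k.1 ∈ 𝐍(Z) := fun k => nK ▸ k.2
  obtain ⟨μ0, cL⟩ := exists_co' (n := 11) ZL (fun a ha => kZ ⟨a, LK ha⟩) (fun a ha => hZ ▸ ⟨⟨a, ha⟩ ^ 2,
    hLs.2.1 ▸ Solv.pow_mem_frattini hLs.1 _, pow_two a⟩) (by rw [hLc, hZc]; norm_num)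
  obtain ⟨ζ0, cZ⟩ := exists_co' (n := 2) (Z := ⊥) (S := Z) bot_le (by simp) (fun a ha => pow_two a ▸ hZe.2 a ha)
    (by rw [hZc, card_bot]; norm_num)
  let Ψ : K →* P5 × L3 := e.toMonoidHom.comp (QuotientGroup.mk' _)
  have Ψs : Surjective Ψ := e.surjective.comp (QuotientGroup.mk'_surjective _)
  have Ψk : ∀ k, Ψ k = 1 ↔ k.1 ∈ L := fun k => e.map_eq_one_iff.trans (QuotientGroup.eq_one_iff k)
  have Ψe : ∀ k k', Ψ k = Ψ k' → k.1⁻¹ * k'.1 ∈ L := fun k k' h => (Ψk (k⁻¹ * k')).1 (by rw [map_mul, map_inv, h, inv_mul_cancel])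
  choose M _ hM using fun k : K => cL.ex (KL k.2) (kZ k)
  let T : P5 × L3 → ℕ → ℕ := fun p c => vm 12 c (M (surjInv Ψs p))
  have key : ∀ k : K, ∀ a ∈ L, μ0 (k.1⁻¹ * a * k) = T (Ψ k) (μ0 a) := fun k a ha => by
    have l := Ψe _ _ (surjInv_eq Ψs (Ψ k))
    refine Eq.trans ?_ ((cL.conj_self l (norm_mem (hM _).1 ha)).trans ((hM _).2 a ha))
    congr 1; group
  have A : Act T := ⟨fun _ _ _ => vm_lt 12 _ _, fun _ _ _ _ _ => vm_xor _ _ _ _, fun p q c hc => by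
      obtain ⟨a, ha, rfl⟩ := cL.surj c hc
      obtain ⟨k, rfl⟩ := Ψs p
      obtain ⟨l, rfl⟩ := Ψs q
      rw [← map_mul, ← key _ a ha, ← key _ a ha, ← key _ _ (norm_mem (KL k.2) ha)]
      congr 1; simp only [coe_mul]; group,
    fun c hc => by
      obtain ⟨a, ha, rfl⟩ := cL.surj c hc
      rw [← map_one Ψ, ← key _ a ha]; simp⟩
  obtain ⟨y, oy⟩ := exists_prime_orderOf_dvd_card' (G := L3) 7 (by rw [Bt.card_SL3]; norm_num)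
  have y7 : y ^ 7 = 1 := oy ▸ pow_orderOf_eq_one y
  have y1 : y ≠ 1 := fun e => by rw [e, orderOf_one] at oy; omega
  have lift : ∀ r : P5, r * (r * r) = 1 → r ≠ 1 → ∃ a b : K, Ψ a = (r, 1) ∧ Ψ b = (1, y) ∧ a.1 ^ 3 = 1 ∧
      L ⊓ 𝐂₁(a.1) = Z ∧ L ⊓ 𝐂₁(b.1) = ⊥ := fun r r3 r1 => by
    obtain ⟨k, hk⟩ := Ψs (r, y)
    have r3 : r ^ 3 = 1 := by rw [← r3]; simp only [pow_succ, pow_zero, one_mul, mul_assoc]
    have k1 : k ^ 84 = 1 := Subtype.ext (by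
      rw [show 84 = 21 * 4 from rfl, pow_mul]
      exact pow4 ZC cL cZ ((Ψk _).1 (by rw [map_pow, hk, Prod.pow_mk, show 21 = 3 * 7 from rfl, pow_mul, r3, pow_mul', y7]; simp)))
    have e1 : Ψ (k ^ 28) = (r, 1) := by
      rw [map_pow, hk, Prod.pow_mk, show 28 = 7 * 4 from rfl, pow_mul y, y7, show 7 * 4 = 3 * 9 + 1 from rfl, pow_succ,
        pow_mul, r3]; simp
    have e2 : Ψ (k ^ 36) = (1, y) := by
      rw [map_pow, hk, Prod.pow_mk, show 36 = 3 * 12 from rfl, pow_mul r, r3, show 3 * 12 = 7 * 5 + 1 from rfl, pow_succ y,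
        pow_mul, y7]; simp
    have a3 : (k ^ 28) ^ 3 = 1 := by rw [← pow_mul, k1]
    have b7 : (k ^ 36) ^ 7 = 1 := by rw [← pow_mul, show 36 * 7 = 84 * 3 from rfl, pow_mul, k1, one_pow]
    exact ⟨_, _, e1, e2, congrArg Subtype.val a3, hxy _ _ (k ^ 28).2 (k ^ 36).2
      ((orderOf_coe _).trans (orderOf_eq_prime a3 fun e => r1 (by simpa [e] using congrArg Prod.fst e1.symm)))
      ((orderOf_coe _).trans (orderOf_eq_prime b7 fun e => y1 (by simpa [e] using congrArg Prod.snd e2.symm)))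
      (congrArg Subtype.val (Commute.pow_pow_self k 28 36).eq)⟩
  obtain ⟨-, ŷ, -, eŷ, -, -, cŷ⟩ := lift (swap 0 1 * swap 1 2) (by decide +kernel) (by decide +kernel)
  have fy : ∀ a ∈ L, ŷ.1⁻¹ * a * ŷ = a → a = 1 := fun a ha e => mem_bot.1 (cŷ.le ⟨ha, mem_c1.2 (by
    rw [mul_assoc, inv_mul_eq_iff_eq_mul] at e; exact e)⟩)
  obtain ⟨P, P', p1, p2, lf, l1, li, ls, hT⟩ := tensor A (fun r r3 r1 c hc e => by
      obtain ⟨x, -, ex, -, x3, cx, -⟩ := lift r r3 r1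
      obtain ⟨a, ha, rfl⟩ := cL.surj c hc
      rw [← ex, ← key x a ha, eq_comm, cL.eq_iff ha (norm_mem (KL x.2) ha)] at e
      generalize hd : a⁻¹ * (x.1⁻¹ * a * x) = d at e
      have e1 : a * x = x * a * d := by rw [← hd]; group
      have e2 : d * x = x * d := mem_c1.1 (cx.ge e).2
      have e3 : a * x.1 ^ 3 = x.1 ^ 3 * a * (d * d * d) := by
        have f1 : ∀ t, a * (x * t) = x * (a * (d * t)) := fun t => by rw [← mul_assoc, e1]; group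
        have f2 : ∀ t, d * (x * t) = x * (d * t) := fun t => by rw [← mul_assoc, e2, mul_assoc]
        simp only [pow_succ, pow_zero, one_mul, mul_assoc, f1, f2, e2]
      rw [x3, mul_one, one_mul, zz_Z ZC cL cZ e, one_mul, left_eq_mul] at e3
      exact (cL.ker a ha).2 (cx.le ⟨ha, mem_c1.2 (by rw [e1, e3, mul_one])⟩)) y7 fun c hc e => by
      obtain ⟨a, ha, rfl⟩ := cL.surj c hc
      rw [← eŷ, ← key ŷ a ha, eq_comm, cL.eq_iff ha (norm_mem (KL ŷ.2) ha)] at e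
      obtain ⟨d, hd⟩ := Finite.surjective_of_injective
        (f := fun d : Z => (⟨d * (ŷ.1⁻¹ * d * ŷ), mul_mem d.2 (norm_mem (kZ ŷ) d.2)⟩ : Z)) (fun c d e => by
          replace e : c.1 * (ŷ.1⁻¹ * c * ŷ) = d * (ŷ.1⁻¹ * d * ŷ) := congrArg Subtype.val e
          refine Subtype.ext (mul_inv_eq_one.1 (fy _ (ZL (mul_mem c.2 (inv_mem d.2))) ?_))
          rw [show ŷ.1⁻¹ * (c * d.1⁻¹) * ŷ = c.1⁻¹ * (c * (ŷ.1⁻¹ * c * ŷ)) * (ŷ.1⁻¹ * d * ŷ)⁻¹ by group, e,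
            inv_eq_of_mul_eq_one_right (zz_Z ZC cL cZ c.2), inv_eq_of_mul_eq_one_right (zz_Z ZC cL cZ d.2)]
          group) ⟨_, e⟩
      replace hd : d.1 * (ŷ.1⁻¹ * d * ŷ) = a⁻¹ * (ŷ.1⁻¹ * a * ŷ) := congrArg Subtype.val hd
      have := fy (a * d) (mul_mem ha (ZL d.2)) (by
        rw [show ŷ.1⁻¹ * (a * d) * ŷ = a * (a⁻¹ * (ŷ.1⁻¹ * a * ŷ)) * (ŷ.1⁻¹ * d * ŷ) by group, ← hd, mul_assoc, mul_assoc,
          zz_Z ZC cL cZ (norm_mem (kZ ŷ) d.2), mul_one])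
      exact (cL.ker a ha).2 (by rw [eq_inv_of_mul_eq_one_left this]; exact inv_mem d.2)
  have cL' := cL.change p2 p1
  set μ : G → ℕ := fun a => vm 12 (μ0 a) P'
  have act : ∀ k : K, ∀ a ∈ L, μ (k.1⁻¹ * a * k) = tn (μ a) (cd (Ψ k).1) (lf (Ψ k).2) := fun k a ha => by
    have := hT (Ψ k).1 (Ψ k).2 _ (cL'.lt a ha)
    rw [← vm_mm (by norm_num), p2, vm_mo (by norm_num) (cL.lt a ha), ← key k a ha] at this
    simp only [μ] at this ⊢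
    rw [this, ← vm_mm (by norm_num), p1, vm_mo (by norm_num) (tn_lt (vm_lt 12 _ _) _ _)]
  have lf1 : lf 1 = mo 3 := lam_one.2 _ (l1 _) (by
    obtain ⟨a, ha, e⟩ := cL'.surj 1057 (by norm_num)
    simpa [e, tn_one] using (act 1 a ha).symm)
  choose N Nl hN using fun k : K => cZ.ex (kZ k) (by simp)
  have Nu : ∀ k k' : K, Ψ k = Ψ k' → ∀ b < 2 ^ (3 * 3), Ac 3 Z ζ0 k b → ∀ b' < 2 ^ (3 * 3), Ac 3 Z ζ0 k' b' → b = b' :=
    fun k k' e b l h b' l' h' => cZ.uniq' (by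
      simpa [mm_mo (n := 3) (by norm_num) l] using cZ.cd.mul' h ((ac_mo cZ).2 (ZC (Ψe _ _ e)))) h' l l'
  have cen : ∀ σ, ∀ k : K, Ψ k = (σ, 1) → k.1 ∈ 𝐂(Z) := fun σ => by
    induction σ using Perm.swap_induction_on with
    | one => exact fun k e => ZC ((Ψk k).1 e)
    | swap_mul σ i j _ ih =>
      intro k e
      obtain ⟨t, ht⟩ := Ψs (swap i j, 1)
      have m := mm_lt (n := 3) (by norm_num)
      have := (ac_mo cZ).1 (z_inv _ (Nl ŷ) (fun v hv e => by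
          obtain ⟨c, hc, rfl⟩ := cZ.surj v hv
          rw [← (hN ŷ).2 c hc, cZ.eq_iff (norm_mem (kZ ŷ) hc) hc, mem_bot, inv_mul_eq_one] at e
          rw [fy c (ZL hc) e, cZ.one])
        (Nu (ŷ ^ 7) 1 (by simp [eŷ, y7]) _ (by rw [pw_succ]; exact m _ _) (cZ.cd.pow (hN ŷ) 7) _ (mo_lt (by norm_num))
          cZ.cd.one') _ (Nl t)
        (Nu (t * t) 1 (by simp [ht]) _ (m _ _) (cZ.cd.mul' (hN t) (hN t)) _ (mo_lt (by norm_num)) cZ.cd.one')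
        (Nu (t * ŷ) (ŷ * t) (by simp [ht, eŷ]) _ (m _ _) (cZ.cd.mul' (hN t) (hN ŷ)) _ (m _ _)
          (cZ.cd.mul' (hN ŷ) (hN t))) ▸ hN t)
      simpa using mul_mem this (ih (t⁻¹ * k) (by simp [ht, e, ← mul_assoc]))
  choose! s sL hs using cL'.surj
  have q1 : ∀ a ∈ L, ζ0 (s (μ a) * s (μ a)) = ζ0 (a * a) := fun a ha =>
    congrArg ζ0 (sq_congr ZC cL' cZ (sL _ (cL'.lt a ha)) ha (hs _ (cL'.lt a ha)))
  have g1 : ∀ a ∈ L, ∀ b ∈ L, ζ0 (a⁻¹ * (b⁻¹ * a * b)) = ζ0 (a * b * (a * b)) ^^^ (ζ0 (a * a) ^^^ ζ0 (b * b)) :=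
    fun a ha b hb => by rw [sq_mul ZC cL' cZ ha hb, Nat.xor_comm, ← Nat.xor_assoc, Nat.xor_self, Nat.zero_xor]
  obtain ⟨B, lB, hB⟩ := quad (q := fun c => ζ0 (s c * s c)) (g := fun c d => ζ0 ((s c)⁻¹ * ((s d)⁻¹ * s c * s d)) % 8)
    (fun _ _ => Nat.mod_lt _ (by norm_num)) (fun c hc d hd => by
      rw [Nat.mod_eq_of_lt (b := 8) (cZ.lt _ (cm_Z ZC cL' cZ (sL c hc) (sL d hd))), ← sq_mul ZC cL' cZ (sL c hc) (sL d hd),
        ← q1 _ (mul_mem (sL c hc) (sL d hd)), cL'.mul _ (sL c hc) _ (sL d hd), hs c hc, hs d hd])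
    (fun c hc d hd e he => by
      have l := x12 hd he
      have m := fun d hd => cm_Z ZC cL' cZ (sL c hc) (sL d hd)
      have u := (cL'.eq_iff (mul_mem (sL d hd) (sL e he)) (sL _ l)).1 (by
        rw [cL'.mul _ (sL d hd) _ (sL e he), hs d hd, hs e he, hs _ l])
      rw [Nat.mod_eq_of_lt (b := 8) (cZ.lt _ (m d hd)), Nat.mod_eq_of_lt (b := 8) (cZ.lt _ (m e he)), Nat.mod_eq_of_lt (b := 8) (cZ.lt _ (m _ l)),
        ← cZ.mul _ (m d hd) _ (m e he)]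
      generalize hu : (s d * s e)⁻¹ * s (d ^^^ e) = v at u
      rw [eq_mul_of_inv_mul_eq hu]
      congr 1
      calc _ = (s c)⁻¹ * (v⁻¹ * ((s d * s e)⁻¹ * s c * (s d * s e) * v)) := by group
        _ = (s c)⁻¹ * (s e)⁻¹ * s c * ((s c)⁻¹ * ((s d)⁻¹ * s c * s d) * s e) := by
          rw [← ZC (norm_mem (le_normalizer (mul_mem (sL d hd) (sL e he))) (sL c hc)) v u]; group
        _ = _ := by
          rw [ZC (sL e he) _ (m d hd), ← mul_assoc, ZC (ZL (m e he)) _ (m d hd)]; congr 1; group)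
    (by simpa [cL'.one, cZ.one] using q1 1 L.one_mem) fun a ha c hc => by
      obtain ⟨σ, rfl⟩ := cd_surj ha
      obtain ⟨k, hk⟩ := Ψs (σ, 1)
      have := act k _ (sL c hc)
      rw [hk, hs c hc, lf1, tn_one'] at this
      rw [← this, q1 _ (norm_mem (KL k.2) (sL c hc)), show k.1⁻¹ * s c * k * (k.1⁻¹ * s c * k) = k.1⁻¹ * (s c * s c * k) by group,
        cen σ k hk _ (sq_Z ZC cL' cZ (sL c hc)), inv_mul_cancel_left]
  replace hB : ∀ a ∈ L, ζ0 (a * a) = vm 3 (sqf (μ a)) B := fun a ha => (q1 a ha).symm.trans (hB _ (cL'.lt a ha))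
  let H : Subgroup G :=
    { carrier := {c | c ∈ Z ∧ ∃ v < 8, vm 3 v B = ζ0 c}
      one_mem' := ⟨one_mem _, 0, by norm_num, by rw [vm_zero, cZ.one]⟩
      mul_mem' := fun ⟨a, v, l, e⟩ ⟨b, w, m, f⟩ => ⟨mul_mem a b, _, Nat.xor_lt_two_pow (n := 3) l m, by
        rw [vm_xor, e, f, cZ.mul _ a _ b]⟩
      inv_mem' := fun ⟨a, v, l, e⟩ => ⟨inv_mem a, v, l, by rw [e, cZ.inv a]⟩ }
  have ZH : Z ≤ H := by
    rw [hZ, ← hLs.2.2, _root_.commutator_def, map_commutator, ← MonoidHom.range_eq_map, range_subtype]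
    refine commutator_le.2 fun a ha b hb => ?_
    rw [show ⁅a, b⁆ = a⁻¹⁻¹ * (b⁻¹⁻¹ * a⁻¹ * b⁻¹) by rw [commutatorElement_def]; group]
    exact ⟨cm_Z ZC cL' cZ (inv_mem ha) (inv_mem hb), _, Nat.xor_lt_two_pow (n := 3) (sqf_lt _)
      (Nat.xor_lt_two_pow (n := 3) (sqf_lt _) (sqf_lt _)), by
        rw [g1 _ (inv_mem ha) _ (inv_mem hb), hB _ (inv_mem ha), hB _ (inv_mem hb),
          hB _ (mul_mem (inv_mem ha) (inv_mem hb)), ← vm_xor, ← vm_xor]⟩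
  obtain ⟨B', b1, b2⟩ := exists_inv (by norm_num) lB (sj_inj B lB fun w hw => by
    obtain ⟨c, hc, rfl⟩ := cZ.surj w hw
    exact (ZH hc).2)
  have cZ' := cZ.change b2 b1
  set ζ : G → ℕ := fun a => vm 3 (ζ0 a) B'
  have sq : ∀ a ∈ L, ζ (a * a) = sqf (μ a) := fun a ha => by
    simp only [ζ]; rw [hB a ha, ← vm_mm (by norm_num), b1, vm_mo (by norm_num) (sqf_lt _)]
  have acZ : ∀ k : K, Ac 3 Z ζ k (lf (Ψ k).2) := fun k => by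
    obtain ⟨t, ht⟩ := Ψs ((Ψ k).1, 1)
    have e : Ψ (t⁻¹ * k) = (1, (Ψ k).2) := by rw [map_mul, map_inv, ht]; ext <;> simp
    have := cZ'.cd.mul' ((ac_mo cZ').2 (cen _ t ht)) (cZ'.of_gens (x := lf (Ψ k).2) (kZ (t⁻¹ * k)) (by simp) fun i hi => by
      obtain ⟨c, hc, e1, e2⟩ := sq_lam i hi
      refine ⟨_, sq_Z ZC cL' cZ (sL c hc), by rw [sq _ (sL c hc), hs c hc, e1], ?_⟩
      rw [← e2 _ (l1 _), ← tn_one hc, ← hs c hc, show cd 1 = cd (Ψ (t⁻¹ * k)).1 by rw [e],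
        show lf (Ψ k).2 = lf (Ψ (t⁻¹ * k)).2 by rw [e], ← act _ _ (sL c hc), hs c hc,
        ← sq _ (norm_mem (KL (t⁻¹ * k).2) (sL c hc))]
      congr 1; group)
    simpa [mo_mm (n := 3) (by norm_num) (GL3c_lt _ (l1 _))] using this
  obtain ⟨ψ, hψ⟩ : ∃ ψ : G → P5, ∀ k : K, ψ k.1 = (Ψ k).1 :=
    ⟨fun g => if h : g ∈ K then (Ψ ⟨g, h⟩).1 else 1, fun k => dif_pos k.2⟩
  refine ⟨ψ, μ, ζ, nK, cL', cZ', KL, ZC, fun a ha b hb => ?_,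
    fun k hk => ⟨_, l1 _, acZ ⟨k, hk⟩, fun a ha => hψ ⟨k, hk⟩ ▸ act ⟨k, hk⟩ a ha⟩, fun σ b hb => ?_, fun k hk => ?_, sq, ?_⟩
  · rw [hψ ⟨a, ha⟩, hψ ⟨b, hb⟩]
    exact (hψ (⟨a, ha⟩ * ⟨b, hb⟩)).trans (congrArg Prod.fst (map_mul Ψ _ _))
  · obtain ⟨m, rfl⟩ := ls b hb
    obtain ⟨k, hk⟩ := Ψs (σ, m)
    exact ⟨k, (hψ k).trans (by rw [hk]), by simpa [hk] using acZ k⟩
  · rw [hψ ⟨k, hk⟩, ← Ψk ⟨k, hk⟩]
    exact ⟨fun e => ⟨by rw [e]; rfl, ZC ((Ψk _).1 e)⟩, fun e => Prod.ext e.1 (li ((cZ'.uniq' (acZ ⟨k, hk⟩)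
      ((ac_mo cZ').2 e.2) (GL3c_lt _ (l1 _)) (mo_lt (by norm_num))).trans lf1.symm))⟩
  · rw [card_eq_card_quotient_mul_card_subgroup (L.subgroupOf K), Nat.card_congr e.toEquiv, Nat.card_prod, Bt.card_SL3,
      Nat.card_congr (subgroupOfEquivOfLe LK).toEquiv, hLc, Nat.card_perm, Nat.card_fin]
    norm_num

end CF.JP
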